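import Cfsg.Agent.Qtz.T2B

set_option autoImplicit false
set_option linter.unusedSectionVars false

open scoped commutatorElement

namespace Cfsg.Lib.Qtz

open Cfsg Subgroup Cfsg.Lib.Trans Cfsg.Lib.Trans.TJ Cfsg.Lib.Gold Cfsg.Lib.Local
  Cfsg.Lib.Local.MSS Cfsg.Lib.Local.JC

universe u

variable {G : Type u} [Group G] [Finite G] {E : Subgroup G → Subgroup G → Prop} {n i j : ℕ}
  {v : ℕ → Subgroup G} {A A' B D H R S T U U' V W W' W'' X Y γ : Subgroup G}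
  {a c d d' d'' e e' g q r r' s u w x x' y y' z z' : G}

theorem Cx.fn (h : Cx E 1 v W W' U d d' y y' e c x) (hp : Ph E) :
    ∃ U' e₁ e', Fn (v 0) (v 1) W W' U U' d d' e₁ e' y y' := by
  have hE := h.cr.edge one_pos
  have key : ∀ U₁ U' e₁ e' r', T2 (v 1) (v 0) U₁ U' e₁ e' y r' →
      ∃ U' e₁ e', Fn (v 0) (v 1) W W' U U' d d' e₁ e' y y' := fun U₁ U' e₁ e' r' t => by
    have ta : T2 (v 0) (v 1) W W' d d' y y' := ⟨h.ty, hp.pg _ _ hE⟩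
    obtain rfl := t.co.eq_of_mem h.mu.co' t.my h.mu.yU h.ty.ne
    obtain ⟨s, hs, -, e1⟩ := h.ty.sw
    obtain ⟨s', hs', -, e2⟩ := t.sw
    have a1 := t.pt.cj s
    have a2 := h.ty.pt.cj s'
    rw [cj_eq_of_mem hs.1, cj_eq_of_mem hs.2, e1, t.pt_iff] at a1
    rw [cj_eq_of_mem hs'.1, cj_eq_of_mem hs'.2, e2, ta.pt_iff] at a2
    obtain rfl : r' = y' :=
      a1.elim (fun b => a2.elim (fun b' => b'.trans b.symm) id) Eq.symm
    exact ⟨U', e₁, e', ta, t, ⟨x, h.mu.xU, h.mu.tx⟩, c, h.mu.cW, h.mu.tc⟩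
  obtain ⟨U₁, U', e₁, e', r, r', t⟩ := hp.t2 (h.cr.gr.symm _ _ hE)
  rcases t.pt_iff.1 h.pt with rfl | rfl
  · exact key _ _ _ _ _ t
  · exact key _ _ _ _ _ t.symm

theorem Fn.symm (h : Fn A D W W' U U' d d' e e' y y') : Fn D A U U' W W' e e' d d' y y' :=
  ⟨h.td, h.ta, h.tc, h.tx⟩

theorem Fn.b1_tc (h : Fn A D W W' U U' d d' e e' y y') : ∃ c ∈ W', Tv (ZZ D) c y' := by
  obtain ⟨s, hs, e1, e2⟩ := h.ta.sw
  obtain ⟨c, hc, t⟩ := h.tc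
  exact ⟨_, e1 ▸ conj_mem_cj.2 hc, e2 ▸ t.cj' (ns_ZZ D hs.2)⟩

theorem Fn.swap (h : Fn A D W W' U U' d d' e e' y y') : Fn A D W' W U' U d' d e' e y' y :=
  ⟨h.ta.symm, h.td.symm, h.symm.b1_tc, h.b1_tc⟩

theorem Fn.b1_WQ (h : Fn A D W W' U U' d d' e e' y y') : W ≤ QQ A :=
  h.ta.co.le.trans h.ta.pa.vt.zz_le_Q

theorem Fn.b1_y (h : Fn A D W W' U U' d d' e e' y y') : y ∈ ZZ A := h.ta.co.le h.ta.my

theorem Fn.b1_U (h : Fn A D W W' U U' d d' e e' y y') : U ≤ A ⊓ D :=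
  (h.td.co.le.trans h.td.pa.zz_le).trans (inf_comm _ _).le

theorem Fn.b1_ne (h : Fn A D W W' U U' d d' e e' y y') (t : Tv (ZZ A) x y) : x ≠ 1 ∧ x ≠ y :=
  ⟨fun e => t.nc (e ▸ one_mem _), fun e => t.nc (e ▸ h.ta.pa.vt.zz_comm h.b1_y)⟩

theorem Fn.tv_all (h : Fn A D W W' U U' d d' e e' y y') (hx : x ∈ U) (h1 : x ≠ 1) (h2 : x ≠ y) :
    Tv (ZZ A) x y := by
  obtain ⟨x₀, h0, t⟩ := h.tx
  have hn := ns_ZZ A (h.b1_U h0).1
  rcases (h.td.co.four h0 h.td.my (h.b1_ne t).1 t.ne (h.b1_ne t).2).1 hx with e | e | e | e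
  · exact absurd e h1
  · exact e ▸ t
  · exact absurd e h2
  · exact e ▸ t.congr hn (h.ta.pa.vt.zz_comm (mem_normalizer_conj hn h.b1_y))

theorem Fn.b1_Q (h : Fn A D W W' U U' d d' e e' y y') : QQ A ≤ A ⊓ D ⊓ C1 y :=
  le_inf h.ta.pa.Q_le fun _ hq =>
    mem_centralizer_singleton_iff.2 (h.ta.pa.vt.Q_le_cs hq y h.b1_y).symm

theorem Fn.b1_Q' (h : Fn A D W W' U U' d d' e e' y y') : QQ D ≤ A ⊓ D ⊓ C1 y :=
  inf_comm D A ▸ h.symm.b1_Q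

theorem Fn.t0 (h : Fn A D W W' U U' d d' e e' y y') : A ⊓ D ⊓ C1 y = U ⊔ U' ⊔ QQ A := by
  refine le_antisymm (fun g hg => ?_) (sup_le ((sup_le h.symm.b1_WQ h.swap.symm.b1_WQ).trans h.b1_Q')
    h.b1_Q)
  obtain ⟨x, hx, t⟩ := h.tx
  obtain ⟨x', hx', t'⟩ := h.swap.tx
  have a1 : x ∈ U ⊔ U' ⊔ QQ A := mem_sup_left (mem_sup_left hx)
  have a2 : x' ∈ U ⊔ U' ⊔ QQ A := mem_sup_left (mem_sup_right hx')
  rcases h.ta.stab (h.b1_U hx) (h.swap.b1_U hx') t t' hg.1 (mem_centralizer_singleton_iff.1 hg.2)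
    with e | e | e | e
  · exact mem_sup_right e
  · exact (mul_mem_cancel_right a1).1 (mem_sup_right e)
  · exact (mul_mem_cancel_right a2).1 (mem_sup_right e)
  · exact (mul_mem_cancel_right a1).1 ((mul_mem_cancel_right a2).1 (mem_sup_right e))

theorem Fn.b1_dec (h : Fn A D W W' U U' d d' e e' y y') (hq : q ∈ QQ A) :
    ∃ w ∈ W ⊔ W', ∃ k ∈ QQ A ⊓ QQ D, w * k = q := by
  have h1 : W ⊔ W' ≤ QQ A := sup_le h.b1_WQ h.swap.b1_WQ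
  obtain ⟨w, hw, k, hk, rfl⟩ := (Solv.mem_sup_of_le_normalizer' (((h1.trans h.ta.pa.Q_le).trans
    inf_le_right).trans (self_le_normalizer_pCoreOf D))).1 (h.symm.t0 ▸ h.symm.b1_Q' hq)
  exact ⟨w, hw, k, ⟨(mul_mem_cancel_left (h1 hw)).1 hq, hk⟩, rfl⟩

theorem Fn.q_eq (h : Fn A D W W' U U' d d' e e' y y') : QQ A = W ⊔ W' ⊔ (QQ A ⊓ QQ D) := by
  refine le_antisymm (fun q hq => ?_) (sup_le (sup_le h.b1_WQ h.swap.b1_WQ) inf_le_left)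
  obtain ⟨w, hw, k, hk, rfl⟩ := h.b1_dec hq
  exact mul_mem_sup hw hk

theorem Fn.b1_sq (h : Fn A D W W' U U' d d' e e' y y') :
    closure {z | ∃ x ∈ QQ A, z = x * x} ≤ closure {z | ∃ x ∈ QQ D, z = x * x} := by
  refine closure_mono ?_
  rintro _ ⟨q, hq, rfl⟩
  obtain ⟨w, hw, k, hk, rfl⟩ := h.b1_dec hq
  have h1 := sup_le h.ta.co.le h.ta.co'.le hw
  refine ⟨k, hk.2, ?_⟩
  rw [mul_assoc, ← mul_assoc k, ← h.ta.pa.vt.Q_le_cs hk.1 w h1, mul_assoc, ← mul_assoc w,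
    h.ta.pa.vt.zz_sq h1, one_mul]

theorem b1_ns (X : Subgroup G) : Ns X ≤ Ns (closure {z | ∃ x ∈ X, z = x * x}) := fun g hg =>
  mem_normalizer_of_cj_le (by
    rw [cj_closure]
    refine closure_mono ?_
    rintro _ ⟨_, ⟨x, hx, rfl⟩, rfl⟩
    exact ⟨_, mem_normalizer_conj hg hx, conj_mul.symm⟩)

theorem Fn.ea (h : Fn A D W W' U U' d d' e e' y y') : IsElementaryAbelian 2 (QQ A) := by
  have h1 := h.ta.pa.eq_bot' (Y := closure {z | ∃ x ∈ QQ A, z = x * x})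
    ((closure_le _).2 (by rintro _ ⟨x, hx, rfl⟩; exact h.ta.pa.Q_le (mul_mem hx hx)))
    ((self_le_normalizer_pCoreOf A).trans (b1_ns _))
    (le_antisymm h.b1_sq h.symm.b1_sq ▸ (self_le_normalizer_pCoreOf D).trans (b1_ns _))
  exact ea_of_sq fun a ha => h1.le (subset_closure ⟨a, ha, rfl⟩)

theorem Fn.cent (h : Fn A D W W' U U' d d' e e' y y') : A ⊓ D ⊓ C1 y ≤ Cs (QQ A ⊓ QQ D) :=
  h.t0.le.trans (sup_le ((sup_le h.symm.b1_WQ h.swap.symm.b1_WQ).trans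
    ((ea_le_centralizer h.symm.ea).trans (centralizer_le inf_le_right)))
    ((ea_le_centralizer h.ea).trans (centralizer_le inf_le_left)))

theorem Fn.b1_mem (h : Fn A D W W' U U' d d' e e' y y') (hx : x ∈ U) (hc : x ∈ Cs W) : x ∈ W := by
  by_contra hn
  have t := h.tv_all hx (fun e => hn (e ▸ one_mem _)) fun e => hn (e ▸ h.ta.my)
  obtain ⟨c, h1, t'⟩ := h.tc
  exact t.ne ((h.ta.co.tv_act (h.b1_U hx).1 t h.ta.my h1 (h.symm.b1_ne t').1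
    (h.symm.b1_ne t').2).symm.trans (commutatorElement_eq_one_iff_mul_comm.2 (hc c h1).symm))

theorem Fn.inf_le (h : Fn A D W W' U U' d d' e e' y y') : (U ⊔ U') ⊓ QQ A ≤ W ⊔ W' := by
  intro k hk
  have hV := h.ta.pa.vt
  have c0 : ∀ X ≤ ZZ A, QQ A ≤ Cs X := fun X hX => hV.Q_le_cs.trans (centralizer_le hX)
  by_cases e0 : y = y'
  · obtain rfl := h.td.eq_iff.2 e0
    exact mem_sup_left (h.b1_mem (sup_idem U ▸ hk.1) (c0 W h.ta.co.le hk.2))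
  obtain ⟨u, hu, u', hu', rfl⟩ := (Solv.mem_sup_of_le_normalizer' ((h.td.co.le.trans
    (h.td.pa.vt.zz_comm.trans (centralizer_le h.td.co'.le))).trans
    (centralizer_le_normalizer _))).1 hk.1
  have h1 : u' ∈ Cs W := by
    by_cases e1 : u' = 1
    · exact e1 ▸ one_mem _
    by_cases e2 : u' = y'
    · exact e2 ▸ c0 W h.ta.co.le (hV.zz_le_Q h.swap.b1_y)
    exact h.ta.co.tv_sep (h.swap.b1_U hu').1 (h.swap.tv_all hu' e1 e2) fun e3 => e0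
      (h.ta.eq_iff.1 (h.ta.co.eq_of_mem h.ta.co' e3 h.ta.my' h.ta.toTy.symm.ne))
  have h2 := h.b1_mem hu ((mul_mem_cancel_right h1).1 (c0 W h.ta.co.le hk.2))
  exact mul_mem_sup h2 (h.swap.b1_mem hu'
    (c0 W' h.ta.co'.le ((mul_mem_cancel_left (h.b1_WQ h2)).1 hk.2)))

theorem Fn.ns_t0 (h : Fn A D W W' U U' d d' e e' y y') : A ⊓ D ≤ Ns (A ⊓ D ⊓ C1 y) := by
  refine fun g hg => mem_normalizer_of_cj_le (cj_le_iff.2 fun t ht =>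
    ⟨(A ⊓ D).mul_mem ((A ⊓ D).mul_mem hg ht.1) ((A ⊓ D).inv_mem hg),
      mem_centralizer_singleton_iff.2 ?_⟩)
  have h1 := mem_centralizer_singleton_iff.1 ht.2
  have key : ∀ z, t * z = z * t → g * z * g⁻¹ = y → g * t * g⁻¹ * y = y * (g * t * g⁻¹) := by
    rintro z h2 rfl
    rw [conj_mul, conj_mul, h2]
  rcases (h.ta.st g hg.1).1 hg.2 with e | e
  · exact key _ h1 e.1
  · exact key _ (h.ta.fix' ht.1 h1).1 e.2

theorem Fn.b1_J (h : Fn A D W W' U U' d d' e e' y y') : QQ A ≤ J (A ⊓ D) := by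
  obtain ⟨X, hX⟩ := exists_maxEA 2 (A ⊓ D)
  refine (((h.ta.pa.vt.ffh h.ta.syl.2.1).ffb hX).of_card_le h.ta.pa.Q_le h.ea
    (Trans.card_le_of_le ?_)).le_J
  exact (sup_le inf_le_right h.ta.pa.vt.zz_comm).trans h.ta.cs_eq.le

theorem Fn.J_eq (h : Fn A D W W' U U' d d' e e' y y') : J (A ⊓ D) = A ⊓ D ⊓ C1 y := by
  refine le_antisymm (fun x hx => ?_) (h.t0.le.trans (sup_le ((sup_le h.symm.b1_WQ
    h.swap.symm.b1_WQ).trans (inf_comm D A ▸ h.symm.b1_J)) h.b1_J))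
  have r := h.ta.pa.vt.ffh h.ta.syl.2.1
  have h1 := h.ta.co.vt.sec.mem_normalizer_pre (r.J_le hx)
    (Ngrp.Red.invt_of_mem_NrmD (r.hat_mem_NrmD (le_ncl _ _ hx)) h.ta.co.cmp.1)
  rw [← h.ta.co.cmp.2] at h1
  exact ⟨TJ.J_le _ hx, mem_centralizer_singleton_iff.2 (h.ta.fix (TJ.J_le _ hx) h1).1⟩

theorem Fn.wc (h : Fn A D W W' U U' d d' e e' y y')
    (hg : Trans.cj g (A ⊓ D ⊓ C1 y) ≤ A ⊓ D) : g ∈ A ⊓ D := by
  refine h.ta.pa.push2 h.ta.pg inf_le_left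
    (fun e => h.ta.ne (e.le (h.b1_Q (h.b1_WQ h.ta.my)))) h.ns_t0
    ((inf_comm D A ▸ h.td.inf_o2).trans h.b1_Q') (h.ta.inf_o2.trans h.b1_Q) ?_
  rw [← h.J_eq] at hg ⊢
  refine mem_normalizer_of_cj_le (cj_le_iff_le_cj_inv.2 (J_le_iff.2 fun X hX =>
    cj_le_iff_le_cj_inv.1 ?_))
  exact (hX.of_card_le ((cj_mono g hX.le_J).trans hg) (Ngrp.maxEA_cj hX g).ea (card_cj g X).ge).le_J

end Cfsg.Lib.Qtz
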