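import Cfsg.Agent.Qtz.Defs

set_option autoImplicit false
set_option linter.unusedSectionVars false

open scoped commutatorElement

namespace Cfsg.Lib.Qtz

open Cfsg Subgroup Cfsg.Lib.Trans Cfsg.Lib.Trans.TJ Cfsg.Lib.Gold Cfsg.Lib.Local
  Cfsg.Lib.Local.MSS Cfsg.Lib.Local.JC

universe u

variable {G : Type u} [Group G] [Finite G] {E : Subgroup G → Subgroup G → Prop} {n i j : ℕ}
  {v : ℕ → Subgroup G} {A A' B D H R S T U U' V W W' W'' X Y γ : Subgroup G}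
  {a c d d' d'' e e' g q r r' s u w x x' y y' z z' : G}

theorem mem_OZ : x ∈ OZ X ↔ x ∈ X ∧ x ∈ Cs X ∧ x * x = 1 := by
  rw [mem_omegaOne_center_iff, pow_two]

theorem ZZ_cj (g : G) (A : Subgroup G) : ZZ (cj g A) = cj g (ZZ A) := by
  have k : ∀ (g : G) (A : Subgroup G), cj g (ZZ A) ≤ ZZ (cj g A) := fun g A =>
    cj_le_iff_le_cj_inv.2 (iSup₂_le fun S hS => cj_le_iff_le_cj_inv.1
      ((omZ_cj g S).ge.trans (le_iSup₂_of_le (cj g S) (hS.cj g) le_rfl)))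
  refine le_antisymm (cj_inv_le_iff_le_cj.1 ?_) (k g A)
  simpa only [cj_inv_cj] using k g⁻¹ (cj g A)

theorem OZ_le_ZZ (h : IsSylowIn 2 S A) : OZ S ≤ ZZ A := by
  exact le_iSup₂_of_le S h le_rfl

theorem ZZ_eq (h : IsSylowIn 2 S A) : ZZ A = MSS.ncl (OZ S) A := by
  refine le_antisymm (iSup₂_le fun T hT => ?_) (iSup_le fun l => ?_)
  · obtain ⟨g, hg, rfl⟩ := hT.exists_cj_eq h
    exact (omZ_cj g S).le.trans (cj_le_ncl _ hg)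
  · exact (omZ_cj _ S).ge.trans (OZ_le_ZZ (h.cj_of_mem l.2))

theorem ns_ZZ (A : Subgroup G) : A ≤ Ns (ZZ A) := by
  exact fun g hg => cj_eq_self_iff.1 (by rw [← ZZ_cj, cj_eq_of_mem hg])

theorem O2_le_iff : O2 X ≤ Y ↔ ∀ g ∈ X, Odd (orderOf g) → g ∈ Y := by
  simp only [Local.resOf_le_iff, Nat.coprime_two_right]

theorem mem_O2 (hg : g ∈ X) (ho : Odd (orderOf g)) : g ∈ O2 X := by
  exact O2_le_iff.1 le_rfl g hg ho

theorem Vt.cj (h : Vt A) (g : G) : Vt (cj g A) := by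
  obtain ⟨S, h1, h2⟩ := h.syl
  refine ⟨h.hy, ⟨_, cj_top g ▸ h1.cj g, cj_mono g h2⟩, ?_⟩
  rw [QQ, ← cj_pCoreOf]
  exact fun e => h.q (cj_eq_bot.1 e)

theorem Vt.ch (h : Vt A) : Local.CharP 2 A := by
  obtain ⟨S, h1, h2⟩ := h.syl
  exact h.hy.ch S A h1 h2 h.q

theorem Vt.sol (h : Vt A) : Group.IsSolvable A := by
  obtain ⟨S, h1, h2⟩ := h.syl
  exact h.hy.sol S A h1 h2 h.q

theorem Vt.mono (h : Vt A) (h1 : A ≤ X) (h2 : QQ X ≠ ⊥) : Vt X := by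
  obtain ⟨S, h3, h4⟩ := h.syl
  exact ⟨h.hy, ⟨S, h3, h4.trans h1⟩, h2⟩

theorem Vt.syl_top (h : Vt A) (hS : IsSylowIn 2 S A) : IsSylowIn 2 S ⊤ := by
  obtain ⟨T, h1, h2⟩ := h.syl
  exact h1.of_card_ge hS.isPGroup le_top (hS.card_le h1.isPGroup h2)

theorem Vt.zz_le (h : Vt A) : ZZ A ≤ OZ (QQ A) := by
  exact iSup₂_le fun S hS => omZ_le_omZ_pCoreOf h.ch hS

theorem Vt.zz_le_Q (h : Vt A) : ZZ A ≤ QQ A := by
  exact h.zz_le.trans (omZ_le _)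

theorem Vt.zz_le_self (h : Vt A) : ZZ A ≤ A := by
  exact h.zz_le_Q.trans (MSS.pCoreOf_le A)

theorem Vt.Q_le_cs (h : Vt A) : QQ A ≤ Cs (ZZ A) := by
  exact (le_centralizer_omZ _).trans (centralizer_le h.zz_le)

theorem Vt.ea (h : Vt A) : IsElementaryAbelian 2 (ZZ A) := by
  exact ea_mono (ea_omegaOne_center _) h.zz_le

theorem Vt.zz_comm (h : Vt A) : ZZ A ≤ Cs (ZZ A) := by
  exact ea_le_centralizer h.ea

theorem Vt.zz_sq (h : Vt A) (hx : x ∈ ZZ A) : x * x = 1 := by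
  exact ea_sq h.ea hx

theorem Vt.zz_ne (h : Vt A) : ZZ A ≠ ⊥ := by
  obtain ⟨S, hS⟩ := exists_isSylowIn (p := 2) A
  exact fun e => omZ_ne_bot hS.isPGroup
    (fun f => h.q (eq_bot_iff.2 ((pCoreOf_le_of_isSylowIn hS).trans f.le)))
    (eq_bot_iff.2 ((OZ_le_ZZ hS).trans e.le))

theorem Vt.pred (h : Vt A) : PRed 2 (ZZ A) A := by
  refine ⟨ns_ZZ A, fun D h1 h2 h3 => le_centralizer_iff.1 (iSup₂_le fun S hS => ?_)⟩
  rw [le_centralizer_iff, ← resOf_sup_sylowIn (hS.inf_normal_of_le h2 h1)]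
  exact sup_le (h3.trans (centralizer_le (OZ_le_ZZ hS)))
    (inf_le_left.trans (le_centralizer_omZ S))

theorem Vt.sec (h : Vt A) : Ngrp.Sec A (ZZ A) ⊥ := by
  exact Ngrp.sec_bot h.ea (ns_ZZ A)

theorem Vt.red (h : Vt A) : Ngrp.Red h.sec.Kq h.sec.Mo := by
  exact h.sec.red' h.sol h.pred

theorem Vt.ffh (h : Vt A) (hS : IsSylowIn 2 S A) : Ngrp.FFH (ZZ A) S A := by
  exact ⟨h.ea, h.zz_le_Q.trans (pCoreOf_le_of_isSylowIn hS), hS.le, h.sol, h.pred⟩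

theorem Vt.fix_mem (h : Vt A) (hS : IsSylowIn 2 S A) (hu : u ∈ ZZ A) (hc : u ∈ Cs S) : u ∈ OZ S := by
  exact mem_OZ.2 ⟨(h.ffh hS).VT hu, hc, h.zz_sq hu⟩

end Cfsg.Lib.Qtz
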