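import Cfsg.Agent.Qtz.Basic

set_option autoImplicit false
set_option linter.unusedSectionVars false

open scoped commutatorElement

namespace Cfsg.Lib.Qtz

open Cfsg Subgroup Cfsg.Lib.Trans Cfsg.Lib.Trans.TJ Cfsg.Lib.Gold Cfsg.Lib.Local
  Cfsg.Lib.Local.MSS Cfsg.Lib.Local.JC

universe u

variable {G : Type u} [Group G] [Finite G] {E : Subgroup G → Subgroup G → Prop} {n i j : ℕ}
  {v : ℕ → Subgroup G} {A A' B D H R S T U U' V W W' W'' X Y γ : Subgroup G}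
  {a c d d' d'' e e' g q r r' s u w x x' y y' z z' : G}

theorem Tv.cj (h : Tv V x z) (g : G) : Tv (cj g V) (g * x * g⁻¹) (g * z * g⁻¹) := by
  have k : ∀ y, y ∈ Cs V ↔ g * y * g⁻¹ ∈ Cs (Trans.cj g V) := fun y => by
    rw [Cs, Cs, ← cj_centralizer, conj_mem_cj]
  refine ⟨by rw [conj_mul, ← k]; exact h.sq, fun e => h.ne (by simpa using e),
    conj_mem_cj.2 h.mem, fun u hu => ?_, fun e => h.nc ((k _).2 e)⟩
  have e : ⁅g * x * g⁻¹, u⁆ = g * ⁅x, g⁻¹ * u * g⁆ * g⁻¹ := by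
    simp only [commutatorElement_def]; group
  rw [e]
  rcases h.act _ (mem_cj.1 hu) with f | f <;> rw [f]
  exacts [Or.inl (by simp), Or.inr rfl]

theorem Tv.cj' (h : Tv V x z) (hg : g ∈ Ns V) : Tv V (g * x * g⁻¹) (g * z * g⁻¹) := by
  have := h.cj g
  rwa [cj_eq_of_mem_normalizer hg] at this

theorem Tv.uniq (h : Tv V x z) (h' : Tv V x z') : z = z' := by
  by_contra n
  refine h.nc (mem_centralizer_iff.2 fun u hu => (commutatorElement_eq_one_iff_mul_comm.1 ?_).symm)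
  by_contra q
  exact n (((h.act u hu).resolve_left q).symm.trans ((h'.act u hu).resolve_left q))

theorem Tv.congr (h : Tv V x z) (hx : x ∈ Ns V) (hc : x' * x⁻¹ ∈ Cs V) : Tv V x' z := by
  obtain ⟨c, rfl⟩ : ∃ c, x' = c * x := ⟨x' * x⁻¹, by group⟩
  rw [mul_inv_cancel_right] at hc
  refine ⟨?_, h.ne, h.mem, fun u hu => ?_, fun e => h.nc ((mul_mem_cancel_left hc).1 e)⟩
  · have := mul_mem (mul_mem hc (mem_normalizer_conj
      (normalizer_le_normalizer_centralizer V hx) hc)) h.sq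
    rwa [show c * (x * c * x⁻¹) * (x * x) = c * x * (c * x) by group] at this
  · have e : ⁅c * x, u⁆ = ⁅x, u⁆ := by
      have := mem_centralizer_iff.1 hc _ (mem_normalizer_conj hx hu)
      simp only [commutatorElement_def]
      calc c * x * u * (c * x)⁻¹ * u⁻¹ = c * (x * u * x⁻¹) * c⁻¹ * u⁻¹ := by group
        _ = _ := by rw [← this]; group
    rw [e]; exact h.act u hu

theorem Tv.of_act (h1 : x * x ∈ Cs V) (hx : x ∈ Ns V) (h2 : x ∉ Cs V)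
    (h3 : ∀ u ∈ V, ⁅x, u⁆ = 1 ∨ ⁅x, u⁆ = z) : Tv V x z := by
  obtain ⟨u, hu, e⟩ : ∃ u ∈ V, ⁅x, u⁆ ≠ 1 := by
    by_contra q
    push Not at q
    exact h2 (mem_centralizer_iff.2 fun u hu => (commutatorElement_eq_one_iff_mul_comm.1 (q u hu)).symm)
  have f := (h3 u hu).resolve_left e
  exact ⟨h1, f ▸ e, f ▸ mul_mem (mem_normalizer_conj hx hu) (inv_mem hu), h3, h2⟩

theorem Vt.tv_iff (h : Vt A) (hx : x ∈ A) (hz : z ∈ ZZ A) :
    Tv (ZZ A) x z ↔ Local.Tv.IsTv (h.sec.hat x) (h.sec.bar z) := by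
  rw [h.sec.isTv_iff hx hz]
  exact ⟨fun t => ⟨t.sq, t.ne, t.act, t.nc⟩, fun t => ⟨t.1, t.2.1, hz, t.2.2.1, t.2.2.2⟩⟩

theorem Co.cj (h : Co A W d) (g : G) : Co (cj g A) (cj g W) (g * d * g⁻¹) := by
  refine ⟨h.vt.cj g, conj_mem_cj.2 h.mem, by rw [Local.orderOf_conj]; exact h.odd,
    by rw [h.eq, cj_commutator, ZZ_cj, cj_zpowers], by rw [card_cj, h.card], fun k hk => ?_⟩
  rw [ZZ_cj, Cs, ← cj_centralizer, mem_cj]
  have := h.ab _ (mem_cj.1 hk)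
  convert this using 1
  simp only [commutatorElement_def]; group

theorem Co.cj' (h : Co A W d) (hg : g ∈ A) : Co A (Trans.cj g W) (g * d * g⁻¹) := by
  have := h.cj g
  rwa [cj_eq_of_mem hg] at this

theorem cmp_mem_fitting {K : Type*} [Group K] {k : K}
    (h : ∀ g : K, k * (g * k * g⁻¹) = g * k * g⁻¹ * k) : k ∈ fittingSubgroup K := by
  have : IsMulCommutative (normalClosure ({k} : Set K)) := isMulCommutative_closure fun a ha b hb => by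
    obtain ⟨_, rfl, h1⟩ := Group.mem_conjugatesOfSet_iff.1 ha
    obtain ⟨_, rfl, h2⟩ := Group.mem_conjugatesOfSet_iff.1 hb
    obtain ⟨s, rfl⟩ := isConj_iff.1 h1
    obtain ⟨t, rfl⟩ := isConj_iff.1 h2
    have := congrArg (fun x => s * x * s⁻¹) (h (s⁻¹ * t))
    convert this using 1 <;> group
  exact Solv.le_fitting (N := normalClosure {k}) inferInstance
    (@CommGroup.isNilpotent _
      { (inferInstance : Group (normalClosure ({k} : Set K))) with mul_comm := this.is_comm.comm })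
    (subset_normalClosure rfl)

theorem Co.cmp (h : Co A W d) : Ngrp.Cmp h.vt.sec.Mo (h.vt.sec.hat d) ∧
    W = h.vt.sec.pre (Ngrp.cV h.vt.sec.Mo (h.vt.sec.hat d)) := by
  have e : W = h.vt.sec.pre (Ngrp.cV h.vt.sec.Mo (h.vt.sec.hat d)) := by
    rw [h.vt.sec.pre_cV h.mem]; exact h.eq
  refine ⟨⟨cmp_mem_fitting fun k => ?_, by rw [← h.vt.sec.card_pre', ← e, h.card]⟩, e⟩
  obtain ⟨g, hg, rfl⟩ := h.vt.sec.exists_hat k
  have h1 := mul_mem (mul_mem hg h.mem) (inv_mem hg)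
  rw [← h.vt.sec.hat_conj hg h.mem, ← commutatorElement_eq_one_iff_mul_comm,
    ← h.vt.sec.hat_comm h.mem h1]
  exact (h.vt.sec.hat_eq_one' (mul_mem (mul_mem (mul_mem h.mem h1)
      (inv_mem h.mem)) (inv_mem h1))).2 (h.ab g hg)

theorem Vt.co_of_cmp (h : Vt A) {k : h.sec.Kq} (hk : Ngrp.Cmp h.sec.Mo k) :
    ∃ d, h.sec.hat d = k ∧ Co A (h.sec.pre (Ngrp.cV h.sec.Mo k)) d := by
  obtain ⟨d, hd, ho, rfl⟩ := h.sec.exists_hat_odd (hk.odd h.red)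
  refine ⟨d, rfl, h, hd, ho, h.sec.pre_cV hd, by rw [h.sec.card_pre', hk.card], fun g hg => ?_⟩
  have h1 := mul_mem (mul_mem hg hd) (inv_mem hg)
  refine (h.sec.hat_eq_one' (c := ⁅d, g * d * g⁻¹⁆)
    (mul_mem (mul_mem (mul_mem hd h1) (inv_mem hd)) (inv_mem h1))).1 ?_
  rw [h.sec.hat_comm hd h1, h.sec.hat_conj hg hd, commutatorElement_eq_one_iff_mul_comm]
  exact (hk.conj _).comm h.red hk

theorem Co.inv (h : Co A W d) : Co A W d⁻¹ := by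
  refine ⟨h.vt, inv_mem h.mem, by rw [orderOf_inv]; exact h.odd, by rw [zpowers_inv]; exact h.eq,
    h.card, fun g hg => ?_⟩
  have := mem_normalizer_conj' (normalizer_le_normalizer_centralizer _ (ns_ZZ A
    (mul_mem (mul_mem (mul_mem hg h.mem) (inv_mem hg)) h.mem))) (h.ab g hg)
  convert this using 1
  simp only [commutatorElement_def]; group

theorem Co.le (h : Co A W d) : W ≤ ZZ A := by
  exact h.cmp.2.le.trans h.vt.sec.pre_le

theorem Co.sq (h : Co A W d) (hw : w ∈ W) : w * w = 1 := by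
  exact h.vt.zz_sq (h.le hw)

theorem Co.ns (h : Co A W d) : d ∈ Ns W := by
  rw [h.cmp.2]
  exact h.vt.sec.mem_normalizer_pre h.mem (Ngrp.inv_cV_self _)

theorem Co.comm_mem (h : Co A W d) (hu : u ∈ ZZ A) : ⁅d, u⁆ ∈ W := by
  rw [h.cmp.2]
  exact h.vt.sec.comm_mem_pre_cV h.mem hu

theorem Co.fpf (h : Co A W d) (hw : w ∈ W) (hc : d * w = w * d) : w = 1 := by
  have h1 := h.le hw
  rw [← h.vt.sec.bar_eq_one' h1]
  rw [h.cmp.2] at hw
  exact Ngrp.eq_one_of_fpf (h.cmp.1.fpf h.vt.red) (h.vt.sec.mem_pre.1 hw).2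
    ((h.vt.sec.hat_smul_eq_iff' h.mem h1).2 hc)

theorem Co.nc (h : Co A W d) : d ∉ Cs (ZZ A) := by
  exact fun e => h.cmp.1.ne_one ((h.vt.sec.hat_eq_one' h.mem).2 e)

theorem Co.cube (h : Co A W d) : d ^ 3 ∈ Cs (ZZ A) := by
  rw [← h.vt.sec.hat_eq_one' (pow_mem h.mem 3), h.vt.sec.hat_pow h.mem]
  exact h.cmp.1.cube h.vt.red

theorem Co.mul_eq' (h : Co A W d) (hw : w ∈ W) : w * (d * w * d⁻¹) = d⁻¹ * w * d := by
  have h1 := h.le hw
  have h2 := h.vt.sec.conj_V h.mem h1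
  have h3 := h.vt.sec.conj_V (inv_mem h.mem) h1
  rw [h.cmp.2] at hw
  have := Ngrp.four_inv_smul h.vt.sec.Mo_sq h.cmp.1.card (Ngrp.inv_cV_self _)
    (h.cmp.1.fpf h.vt.red) (h.vt.sec.mem_pre.1 hw).2
  rw [← h.vt.sec.hat_inv h.mem, h.vt.sec.hat_smul (inv_mem h.mem) h1, h.vt.sec.hat_smul h.mem h1,
    ← h.vt.sec.bar_mul h1 h2, h.vt.sec.bar_inj h3 (mul_mem h1 h2), inv_inv] at this
  exact this.symm

theorem Co.elems (h : Co A W d) (hw : w ∈ W) (h1 : w ≠ 1) :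
    x ∈ W ↔ x = 1 ∨ x = w ∨ x = d * w * d⁻¹ ∨ x = d⁻¹ * w * d := by
  rw [← h.mul_eq' hw]
  exact mem_iff_of_card (ea_mono h.vt.ea h.le) h.card hw (mem_normalizer_conj h.ns hw) h1
    (fun e => h1 (by simpa using e))
    fun e => h1 (h.fpf hw (mul_inv_eq_iff_eq_mul.1 e.symm))

theorem Co.mul_eq (h : Co A W d) (hw : w ∈ W) : w * (d * w * d⁻¹) = d⁻¹ * w * d := by
  exact h.mul_eq' hw

theorem Co.distinct (h : Co A W d) (hw : w ∈ W) (h1 : w ≠ 1) :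
    d * w * d⁻¹ ≠ w ∧ d⁻¹ * w * d ≠ w ∧ d * w * d⁻¹ ≠ d⁻¹ * w * d := by
  have k : d * w * d⁻¹ ≠ w := fun e => h1 (h.fpf hw (mul_inv_eq_iff_eq_mul.1 e))
  refine ⟨k, fun e => k (by rw [← e]; nth_rewrite 2 [e]; group), fun e => h1 ?_⟩
  rw [← h.mul_eq hw] at e
  exact (right_eq_mul.1 e)

theorem Co.four (h : Co A W d) (hu : u ∈ W) (hw : w ∈ W) (h1 : u ≠ 1) (h2 : w ≠ 1) (h3 : u ≠ w) :
    x ∈ W ↔ x = 1 ∨ x = u ∨ x = w ∨ x = u * w := by
  exact mem_iff_of_card (ea_mono h.vt.ea h.le) h.card hu hw h1 h2 h3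

theorem Co.eq_four (h : Co A W d) (hu : u ∈ W) (hw : w ∈ W) (h1 : u ≠ 1) (h2 : w ≠ 1)
    (h3 : u ≠ w) : W = JC.four u w := by
  exact (four_eq_of_card (ea_mono h.vt.ea h.le) h.card hu hw h1 h2 h3).symm

theorem Co.dec (h : Co A W d) (hx : x ∈ ZZ A) :
    ∃ w ∈ W, ∃ u ∈ ZZ A, d * u = u * d ∧ x = w * u := by
  obtain ⟨w, hw, c, hc, e⟩ := Ngrp.exists_dec h.vt.sec.Mo_sq (h.cmp.1.odd h.vt.red)
    (h.vt.sec.bar x)
  obtain ⟨w, hw', rfl⟩ := h.vt.sec.exists_bar w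
  obtain ⟨c, hc', rfl⟩ := h.vt.sec.exists_bar c
  rw [← h.vt.sec.bar_mul hw' hc', h.vt.sec.bar_inj hx (mul_mem hw' hc')] at e
  exact ⟨w, h.cmp.2 ▸ h.vt.sec.mem_pre.2 ⟨hw', hw⟩, c, hc',
    (h.vt.sec.bar_mem_fx' h.mem hc').1 hc, e⟩

end Cfsg.Lib.Qtz
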