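import Cfsg.Agent.Qtz.Cmp

/-! Components: dichotomy, action on the four-group, transvections. -/

set_option autoImplicit false
set_option linter.unusedSectionVars false

open scoped commutatorElement

namespace Cfsg.Lib.Qtz

open Cfsg Subgroup Cfsg.Lib.Trans Cfsg.Lib.Trans.TJ Cfsg.Lib.Gold Cfsg.Lib.Local
  Cfsg.Lib.Local.MSS Cfsg.Lib.Local.JC

universe u

variable {G : Type u} [Group G] [Finite G] {E : Subgroup G → Subgroup G → Prop} {n i j : ℕ}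
  {v : ℕ → Subgroup G} {A A' B D H R S T U U' V W W' W'' X Y γ : Subgroup G}
  {a c d d' d'' e e' g q r r' s u w x x' y y' z z' : G}

theorem Cmp2_mem (h : Co A W d) :
    w ∈ W ↔ w ∈ ZZ A ∧ h.vt.sec.bar w ∈ Ngrp.cV h.vt.sec.Mo (h.vt.sec.hat d) := by
  conv_lhs => rw [h.cmp.2]
  exact h.vt.sec.mem_pre

theorem Cmp2_eq (h : Co A W d) (h' : Co A W' d') (e : Ngrp.SameD (h.vt.sec.hat d) (h.vt.sec.hat d')) :
    W = W' := by
  rw [h.cmp.2, h'.cmp.2, ← e.cV_eq]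

theorem Cmp2_ex (h : Co A W d) : ∃ w ∈ W, w ≠ 1 := by
  by_contra! k
  have := h.card
  rw [(eq_bot_iff_forall _).2 k, card_bot] at this
  omega

theorem Cmp2_odd (ho : Odd (orderOf g)) (h : g * g * x = x * (g * g)) : g * x = x * g := by
  obtain ⟨k, hk⟩ := ho
  have e : g = (g * g) ^ (k + 1) := by
    rw [← sq, ← pow_mul, mul_add, mul_one, show 2 * k + 2 = 2 * k + 1 + 1 from rfl, ← hk, pow_succ,
      pow_orderOf_eq_one, one_mul]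
  rw [e]
  exact (Commute.pow_left h (k + 1)).eq

theorem Cmp2_two (h : Co A W d) (hu : u ∈ W) (hw : w ∈ W) (h1 : u ≠ 1) (h2 : w ≠ 1)
    (h3 : u ≠ w) (hc : g * u = u * g) (hc' : g * w = w * g) : g ∈ Cs W := by
  refine mem_centralizer_iff.2 fun x hx => ?_
  rcases (h.four hu hw h1 h2 h3).1 hx with rfl | rfl | rfl | rfl
  · simp
  · exact hc.symm
  · exact hc'.symm
  · rw [mul_assoc, ← hc', ← mul_assoc, ← hc, mul_assoc]

theorem Cmp2_act (h : Co A W d) (hn : g ∈ Ns W) (hz : z ∈ W) (h1 : z ≠ 1)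
    (hc : g * z = z * g) (hw : w ∈ W) : ⁅g, w⁆ = 1 ∨ ⁅g, w⁆ = z := by
  rcases eq_or_ne w 1 with rfl | w1
  · simp
  rcases eq_or_ne z w with rfl | wz
  · exact .inl (commutatorElement_eq_one_iff_mul_comm.2 hc)
  rw [commutatorElement_def]
  rcases (h.four hz hw h1 w1 wz).1 (mem_normalizer_conj hn hw) with k | k | k | k
  · exact (w1 (by simpa using k)).elim
  · rw [mul_inv_eq_iff_eq_mul, ← hc] at k
    exact (wz (mul_left_cancel k).symm).elim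
  · exact .inl (by rw [k, mul_inv_cancel])
  · exact .inr (by rw [k, mul_inv_cancel_right])

theorem Cmp2_fpf (h : Co A W d) (hn : g ∈ Ns W) (hf : ∀ w ∈ W, g * w = w * g → w = 1) (hw : w ∈ W)
    (h1 : w ≠ 1) (e : g * w * g⁻¹ = d * w * d⁻¹) : g * d⁻¹ ∈ Cs W := by
  obtain ⟨n1, n2, -⟩ := h.distinct hw h1
  have w2 := mem_normalizer_conj' h.ns hw
  have e2 : g * (d⁻¹ * w * d) * g⁻¹ = w := by
    rcases (h.elems hw h1).1 (mem_normalizer_conj hn w2) with k | k | k | k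
    · exact (h1 (by simpa [mul_eq_one_iff_eq_inv, mul_assoc] using k)).elim
    · exact k
    · exact (n2 (by simpa using k.trans e.symm)).elim
    · have := hf _ w2 (mul_inv_eq_iff_eq_mul.1 k)
      exact (h1 (by simpa [mul_eq_one_iff_eq_inv, mul_assoc] using this)).elim
  refine Cmp2_two h hw (mem_normalizer_conj h.ns hw) h1 (fun k => h1 (by simpa using k)) n1.symm
    (mul_inv_eq_iff_eq_mul.1 ?_) (mul_inv_eq_iff_eq_mul.1 ?_)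
  · conv_rhs => rw [← e2]
    group
  · conv_rhs => rw [← e]
    group

theorem Cmp2_inv (h : Co A W d) (hx : x ∈ A) (ht : Tv (ZZ A) x z) (hz : z ∈ W) :
    Ngrp.Cmp h.vt.sec.Mo (h.vt.sec.hat d) ∧ h.vt.sec.bar z ∈ Ngrp.cV h.vt.sec.Mo (h.vt.sec.hat d) ∧
      Ngrp.fx h.vt.sec.Mo (h.vt.sec.hat d) ≤ Ngrp.fx h.vt.sec.Mo (h.vt.sec.hat x) ∧
      (Ngrp.cV h.vt.sec.Mo (h.vt.sec.hat d)).map (Ngrp.cm h.vt.sec.Mo (h.vt.sec.hat x)) =
        zpowers (h.vt.sec.bar z) ∧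
      Ngrp.cV h.vt.sec.Mo (h.vt.sec.hat d) ⊓ Ngrp.fx h.vt.sec.Mo (h.vt.sec.hat x) =
        zpowers (h.vt.sec.bar z) :=
  have t := (h.vt.tv_iff hx ht.mem).1 ht
  h.vt.red.tv_of_inverts t h.cmp.1.mem h.cmp.1.ne_one
    (h.vt.red.tv_inverts_of_mem t h.cmp.1 ((Cmp2_mem h).1 hz).2)

theorem Co.eq_of_mem (h : Co A W d) (h' : Co A W' d') (hw : w ∈ W) (hw' : w ∈ W') (h1 : w ≠ 1) :
    W = W' := by
  refine Cmp2_eq h h' (Ngrp.Cmp.sameD_of_mem h.vt.red h.cmp.1 h'.cmp.1 ((Cmp2_mem h).1 hw).2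
    ((Cmp2_mem h').1 hw').2 fun e => h1 ((h.vt.sec.bar_eq_one' (h.le hw)).1 e))

theorem Co.same (h : Co A W d) (h' : Co A W d') :
    d' * d⁻¹ ∈ Cs (ZZ A) ∨ d' * d ∈ Cs (ZZ A) := by
  have e : Ngrp.cV h.vt.sec.Mo (h.vt.sec.hat d') = Ngrp.cV h.vt.sec.Mo (h.vt.sec.hat d) := by
    rw [← h.vt.sec.img_pre (W := Ngrp.cV _ (h.vt.sec.hat d')), ← h'.cmp.2, ← h.vt.sec.img_pre
      (W := Ngrp.cV _ (h.vt.sec.hat d)), ← h.cmp.2]
  rcases (Ngrp.Cmp.sameD_iff h.vt.red h.cmp.1 h'.cmp.1).2 e with k | k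
  · exact .inl ((h.vt.sec.hat_eq_hat' h'.mem h.mem).1 k)
  · rw [← h.vt.sec.hat_inv h.mem, h.vt.sec.hat_eq_hat' h'.mem (inv_mem h.mem), inv_inv] at k
    exact .inr k

theorem Co.sep (h : Co A W d) (h' : Co A W' d') (hne : W ≠ W') : d ∈ Cs W' := by
  have k := (Ngrp.Cmp.sep h.vt.red h.cmp.1 h'.cmp.1 fun e => hne (Cmp2_eq h h' e)).right
  exact mem_centralizer_iff.2 fun w hw =>
    ((h.vt.sec.bar_mem_fx' h.mem (h'.le hw)).1 (k ((Cmp2_mem h').1 hw).2)).symm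

theorem Co.comm (h : Co A W d) (h' : Co A W' d') : ⁅d, d'⁆ ∈ Cs (ZZ A) := by
  rw [← h.vt.sec.hat_eq_one' (by
    rw [commutatorElement_def]
    exact mul_mem (mul_mem (mul_mem h.mem h'.mem) (inv_mem h.mem)) (inv_mem h'.mem)),
    h.vt.sec.hat_comm h.mem h'.mem, commutatorElement_eq_one_iff_mul_comm]
  exact Ngrp.Cmp.comm h.vt.red h'.cmp.1 h.cmp.1

theorem Co.ns_of (h : Co A W d) (hg : g ∈ A) (hw : w ∈ W) (h1 : w ≠ 1)
    (h2 : g * w * g⁻¹ ∈ W) : g ∈ Ns W := by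
  exact cj_eq_self_iff.1 ((h.cj' hg).eq_of_mem h (conj_mem_cj.2 hw) h2 fun e => h1 (by simpa using e))

theorem Co.conj (h : Co A W d) (hg : g ∈ A) (hn : g ∈ Ns W) :
    g * d * g⁻¹ * d⁻¹ ∈ Cs (ZZ A) ∨ g * d * g⁻¹ * d ∈ Cs (ZZ A) := by
  have k := h.cj' hg
  rw [cj_eq_self_iff.2 hn] at k
  exact h.same k

theorem Co.comm_of_cent (h : Co A W d) (hg : g ∈ A) (hc : g ∈ Cs W) : ⁅g, d⁆ ∈ Cs (ZZ A) := by
  refine (h.conj hg (centralizer_le_normalizer _ hc)).elim id fun k => ?_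
  obtain ⟨w, hw, h1⟩ := Cmp2_ex h
  have c := mem_centralizer_iff.1 hc
  have w1 := mem_normalizer_conj h.ns hw
  have e1 := mem_centralizer_iff.1 k w (h.le hw)
  have e2 := c _ w1
  have e3 := c _ (mem_normalizer_conj h.ns w1)
  have e4 : g * (d * (d * w * d⁻¹) * d⁻¹) * g⁻¹ = w := by
    calc g * (d * (d * w * d⁻¹) * d⁻¹) * g⁻¹
        = g * d * g⁻¹ * (g * (d * w * d⁻¹)) * (d⁻¹ * g⁻¹) := by group
      _ = g * d * g⁻¹ * d * w * (d⁻¹ * g * d⁻¹ * g⁻¹) := by rw [← e2]; group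
      _ = w := by rw [← e1]; group
  rw [← e3, mul_inv_cancel_right] at e4
  refine ((h.distinct hw h1).2.2 ?_).elim
  conv_rhs => rw [← e4]
  group

theorem Co.odd_fix (h : Co A W d) (hn : g ∈ Ns W) (ho : Odd (orderOf g)) (hw : w ∈ W)
    (h1 : w ≠ 1) (hc : g * w = w * g) : g ∈ Cs W := by
  refine mem_centralizer_iff.2 fun x hx => ?_
  rcases Cmp2_act h hn hw h1 hc hx with k | k
  · exact (commutatorElement_eq_one_iff_mul_comm.1 k).symm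
  · refine (Cmp2_odd ho ?_).symm
    have e : g * x = w * x * g := by rw [← k, commutatorElement_def]; group
    rw [mul_assoc, e, ← mul_assoc, ← mul_assoc, hc, mul_assoc w, e, ← mul_assoc, ← mul_assoc,
      h.sq hw, one_mul, mul_assoc]

theorem Co.fix_act (h : Co A W d) (hn : g ∈ Ns W) (hz : z ∈ W) (h1 : z ≠ 1)
    (hc : g * z = z * g) (hw : w ∈ W) : ⁅g, w⁆ = 1 ∨ ⁅g, w⁆ = z := by
  exact Cmp2_act h hn hz h1 hc hw

theorem Co.fix_two (h : Co A W d) (hu : u ∈ W) (hw : w ∈ W) (h1 : u ≠ 1) (h2 : w ≠ 1)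
    (h3 : u ≠ w) (hc : g * u = u * g) (hc' : g * w = w * g) : g ∈ Cs W := by
  exact Cmp2_two h hu hw h1 h2 h3 hc hc'

theorem Co.fpf_act (h : Co A W d) (hn : g ∈ Ns W) (hf : ∀ w ∈ W, g * w = w * g → w = 1) :
    g * d⁻¹ ∈ Cs W ∨ g * d ∈ Cs W := by
  obtain ⟨w, hw, h1⟩ := Cmp2_ex h
  rcases (h.elems hw h1).1 (mem_normalizer_conj hn hw) with k | k | k | k
  · exact (h1 (by simpa using k)).elim
  · exact (h1 (hf w hw (mul_inv_eq_iff_eq_mul.1 k))).elim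
  · exact .inl (Cmp2_fpf h hn hf hw h1 k)
  · exact .inr (by simpa using Cmp2_fpf h.inv hn hf hw h1 (by simpa using k))

theorem Vt.exists_co (h : Vt A) (hx : x ∈ A) (ht : Tv (ZZ A) x z) : ∃ W d, Co A W d ∧ z ∈ W := by
  obtain ⟨k, hk, -, h1, -⟩ := h.red.tv_exists ((h.tv_iff hx ht.mem).1 ht)
  obtain ⟨d, rfl, hd⟩ := h.co_of_cmp hk
  exact ⟨_, d, hd, h.sec.mem_pre.2 ⟨ht.mem, h1⟩⟩

theorem Vt.tv_eq (h : Vt A) (hx : x ∈ A) (hx' : x' ∈ A) (ht : Tv (ZZ A) x z)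
    (ht' : Tv (ZZ A) x' z) : x' * x⁻¹ ∈ Cs (ZZ A) := by
  exact (h.sec.hat_eq_hat' hx' hx).1
    (h.red.tv_eq ((h.tv_iff hx' ht.mem).1 ht') ((h.tv_iff hx ht.mem).1 ht))

theorem Vt.tv_fix (h : Vt A) (hx : x ∈ A) (ht : Tv (ZZ A) x z) : x * z = z * x := by
  obtain ⟨W, d, hd, hz⟩ := h.exists_co hx ht
  have k := (Cmp2_inv hd hx ht hz).2.2.2.2
  exact (h.sec.bar_mem_fx' hx ht.mem).1 (k.ge (mem_zpowers _)).2

theorem Co.tv_inv (h : Co A W d) (hx : x ∈ A) (ht : Tv (ZZ A) x z) (hz : z ∈ W) :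
    x * d * x⁻¹ * d ∈ Cs (ZZ A) := by
  have k := h.vt.red.tv_inverts_of_mem ((h.vt.tv_iff hx ht.mem).1 ht) h.cmp.1 ((Cmp2_mem h).1 hz).2
  have m := mul_mem (mul_mem hx h.mem) (inv_mem hx)
  rwa [← h.vt.sec.hat_conj hx h.mem, ← h.vt.sec.hat_inv h.mem,
    h.vt.sec.hat_eq_hat' m (inv_mem h.mem), inv_inv] at k

theorem Co.tv_fix (h : Co A W d) (hx : x ∈ A) (ht : Tv (ZZ A) x z) (hz : z ∈ W)
    (hu : u ∈ ZZ A) (hc : d * u = u * d) : x * u = u * x := by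
  exact (h.vt.sec.bar_mem_fx' hx hu).1
    ((Cmp2_inv h hx ht hz).2.2.1 ((h.vt.sec.bar_mem_fx' h.mem hu).2 hc))

theorem Co.tv_act (h : Co A W d) (hx : x ∈ A) (ht : Tv (ZZ A) x z) (hz : z ∈ W) (hw : w ∈ W)
    (h1 : w ≠ 1) (h2 : w ≠ z) : ⁅x, w⁆ = z := by
  refine (ht.act w (h.le hw)).resolve_left fun e => ?_
  have k := (Cmp2_inv h hx ht hz).2.2.2.2.le ⟨((Cmp2_mem h).1 hw).2,
    (h.vt.sec.bar_mem_fx' hx (h.le hw)).2 (commutatorElement_eq_one_iff_mul_comm.1 e)⟩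
  rcases (Ngrp.mem_zpowers_iff_of_expo h.vt.sec.Mo_sq).1 k with k | k
  · exact h1 ((h.vt.sec.bar_eq_one' (h.le hw)).1 k)
  · exact h2 ((h.vt.sec.bar_inj (h.le hw) ht.mem).1 k)

theorem Co.tv_sep (h : Co A W d) (hx : x ∈ A) (ht : Tv (ZZ A) x z) (hz : z ∉ W) : x ∈ Cs W := by
  have k := (h.vt.red.tv_comm_of_not_mem ((h.vt.tv_iff hx ht.mem).1 ht) h.cmp.1
    fun e => hz ((Cmp2_mem h).2 ⟨ht.mem, e⟩)).2
  exact mem_centralizer_iff.2 fun w hw =>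
    ((h.vt.sec.bar_mem_fx' hx (h.le hw)).1 (k ((Cmp2_mem h).1 hw).2)).symm

theorem Co.tv_ns (h : Co A W d) (hx : x ∈ A) (ht : Tv (ZZ A) x z) : x ∈ Ns W := by
  by_cases hz : z ∈ W
  · exact h.ns_of hx hz ht.ne (by rwa [h.vt.tv_fix hx ht, mul_inv_cancel_right])
  · exact centralizer_le_normalizer _ (h.tv_sep hx ht hz)

theorem Co.tv_mul (h : Co A W d) (hx : x ∈ A) (hx' : x' ∈ A) (ht : Tv (ZZ A) x z)
    (ht' : Tv (ZZ A) x' z') (hz : z ∈ W) (hz' : z' ∈ W) (hne : z ≠ z') :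
    x' * x * d⁻¹ ∈ Cs (ZZ A) ∨ x' * x * d ∈ Cs (ZZ A) := by
  have t := (h.vt.tv_iff hx ht.mem).1 ht
  have t' := (h.vt.tv_iff hx' ht'.mem).1 ht'
  have k := h.vt.red.tv_mul_mem_zpowers t t' h.cmp.1 ((Cmp2_mem h).1 hz).2 ((Cmp2_mem h).1 hz').2
  rcases (Ngrp.Cmp.mem_zpowers_iff h.vt.red h.cmp.1).1 k with k | k | k
  · have e : h.vt.sec.hat x' = h.vt.sec.hat x := mul_right_cancel (k.trans t.sq.symm)
    exact (hne ((ht.congr (ns_ZZ A hx) ((h.vt.sec.hat_eq_hat' hx' hx).1 e)).uniq ht')).elim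
  · rw [← h.vt.sec.hat_mul hx' hx] at k
    exact .inl ((h.vt.sec.hat_eq_hat' (mul_mem hx' hx) h.mem).1 k)
  · rw [← h.vt.sec.hat_mul hx' hx, ← h.vt.sec.hat_inv h.mem,
      h.vt.sec.hat_eq_hat' (mul_mem hx' hx) (inv_mem h.mem), inv_inv] at k
    exact .inr k

theorem Co.tv_two (h : Co A W d) (hR : IsPGroup 2 R) (h1 : R ≤ A) (hx : x ∈ R) (hx' : x' ∈ R)
    (ht : Tv (ZZ A) x z) (ht' : Tv (ZZ A) x' z') (hz : z ∈ W) (hz' : z' ∈ W) : z = z' := by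
  exact ((h.vt.sec.bar_inj ht'.mem ht.mem).1 (h.vt.red.tv_eq_of_isPGroup (h.vt.sec.isPGroup_imgK hR)
    (h.vt.sec.hat_mem_imgK hx (h1 hx)) (h.vt.sec.hat_mem_imgK hx' (h1 hx'))
    ((h.vt.tv_iff (h1 hx) ht.mem).1 ht) ((h.vt.tv_iff (h1 hx') ht'.mem).1 ht') h.cmp.1
    ((Cmp2_mem h).1 hz).2 ((Cmp2_mem h).1 hz').2).2).symm

end Cfsg.Lib.Qtz
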