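import Cfsg.Agent.Ngrp.NatFF
import Cfsg.Agent.Trans.PushCN
import Cfsg.Agent.Gold.Defs
import Cfsg.Prelude.Def_QuasithinSetup

/-! Amalgams over the centraliser of `Ω₁ Z(T)` with solvable members: definitions. -/

set_option autoImplicit false

open scoped commutatorElement

namespace Cfsg.Lib.Qtz

open Cfsg Subgroup Cfsg.Lib.Trans Cfsg.Lib.Trans.TJ Cfsg.Lib.Gold Cfsg.Lib.Local
  Cfsg.Lib.Local.MSS Cfsg.Lib.Local.JC

universe u

variable {G : Type u} [Group G]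

/-- `Ω₁ Z`. -/
abbrev OZ (X : Subgroup G) : Subgroup G := omZ 2 X

/-- `O₂`. -/
abbrev QQ (L : Subgroup G) : Subgroup G := pCoreOf 2 L

/-- `O²`. -/
abbrev O2 (L : Subgroup G) : Subgroup G := resOf 2 L

/-- The subgroup generated by `Ω₁ Z(S)`, `S` Sylow in `A`. -/
def ZZ (A : Subgroup G) : Subgroup G := ⨆ (S : Subgroup G) (_ : IsSylowIn 2 S A), OZ S

/-- The global hypothesis. -/
structure Hy (G : Type u) [Group G] : Prop where
  ch : ∀ T X : Subgroup G, IsSylowIn 2 T ⊤ → T ≤ X → QQ X ≠ ⊥ → Local.CharP 2 X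
  sol : ∀ T X : Subgroup G, IsSylowIn 2 T ⊤ → T ≤ X → QQ X ≠ ⊥ → Group.IsSolvable X
  qt : ∀ X : Subgroup G, QQ X ≠ ⊥ → PRankLE 3 2 X

/-- `A` contains a Sylow 2-subgroup of `G` and has a nontrivial 2-core. -/
structure Vt (A : Subgroup G) : Prop where
  hy : Hy G
  syl : ∃ S, IsSylowIn 2 S ⊤ ∧ S ≤ A
  q : QQ A ≠ ⊥

/-- `B` is a maximal subgroup of `A`. -/
def Mxl (B A : Subgroup G) : Prop := B < A ∧ ∀ X, B < X → X ≤ A → X = A

/-- A primitive pair. -/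
structure PA (A D : Subgroup G) : Prop where
  hy : Hy G
  syl : ∃ S, IsSylowIn 2 S ⊤ ∧ S ≤ A ⊓ D ∧ Cs (OZ S) ≤ A ⊓ D
  qa : QQ A ≠ ⊥
  qd : QQ D ≠ ⊥
  ma : Mxl (A ⊓ D) A
  md : Mxl (A ⊓ D) D
  un : ∀ X Y : Subgroup G, A ≤ X → D ≤ Y → QQ X ≠ ⊥ → QQ Y ≠ ⊥ → X ⊓ Y ≤ A ⊓ D

/-- `x` induces a transvection with centre `z` on `V`. -/
structure Tv (V : Subgroup G) (x z : G) : Prop where
  sq : x * x ∈ Cs V
  ne : z ≠ 1
  mem : z ∈ V
  act : ∀ v ∈ V, ⁅x, v⁆ = 1 ∨ ⁅x, v⁆ = z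
  nc : x ∉ Cs V

/-- `W = [ZZ A, d]` is a component of `A`. -/
structure Co (A W : Subgroup G) (d : G) : Prop where
  vt : Vt A
  mem : d ∈ A
  odd : Odd (orderOf d)
  eq : W = ⁅ZZ A, zpowers d⁆
  card : Nat.card W = 4
  ab : ∀ g ∈ A, ⁅d, g * d * g⁻¹⁆ ∈ Cs (ZZ A)

/-- `z` is the centre of a transvection on `ZZ A` from `A ⊓ D`. -/
def Pt (A D : Subgroup G) (z : G) : Prop := ∃ x ∈ A ⊓ D, Tv (ZZ A) x z

/-- The local structure of `A` with respect to the neighbour `D`. -/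
structure Ty (A D W W' : Subgroup G) (d d' y y' : G) : Prop where
  pa : PA A D
  co : Co A W d
  co' : Co A W' d'
  my : y ∈ W
  my' : y' ∈ W'
  pt : Pt A D y
  orb : ∀ g ∈ A, (cj g W = W ∧ cj g W' = W') ∨ (cj g W = W' ∧ cj g W' = W)
  sw : ∃ s ∈ A ⊓ D, cj s W = W' ∧ s * y * s⁻¹ = y'
  st : ∀ g ∈ A, g ∈ D ↔
    (g * y * g⁻¹ = y ∧ g * y' * g⁻¹ = y') ∨ (g * y * g⁻¹ = y' ∧ g * y' * g⁻¹ = y)

/-- An edge-transitive graph of primitive pairs. -/
structure Gr (E : Subgroup G → Subgroup G → Prop) : Prop where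
  pa : ∀ A D, E A D → PA A D
  symm : ∀ A D, E A D → E D A
  cj : ∀ A D g, E A D → E (cj g A) (cj g D)
  tr : ∀ A D A' D', E A D → E A' D' →
    ∃ g, (A' = Trans.cj g A ∧ D' = Trans.cj g D) ∨ (A' = Trans.cj g D ∧ D' = Trans.cj g A)

/-- A walk of length `n`. -/
def Wk (E : Subgroup G → Subgroup G → Prop) (n : ℕ) (v : ℕ → Subgroup G) : Prop :=
  ∀ i < n, E (v i) (v (i + 1))

/-- A shortest walk whose ends have modules that do not commute. -/
structure Cr (E : Subgroup G → Subgroup G → Prop) (n : ℕ) (v : ℕ → Subgroup G) : Prop where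
  gr : Gr E
  pos : 0 < n
  wk : Wk E n v
  sh : ∀ m w, 0 < m → m < n → Wk E m w → ZZ (w 0) ≤ Cs (ZZ (w m))
  nc : ¬ ZZ (v 0) ≤ Cs (ZZ (v n))

/-- A new first vertex. -/
def cons (γ : Subgroup G) (v : ℕ → Subgroup G) : ℕ → Subgroup G
  | 0 => γ
  | i + 1 => v i

/-- Two elements that induce transvections with the same centre at the two ends. -/
structure Mu (A A' W U : Subgroup G) (d e c x y : G) : Prop where
  co : Co A W d
  co' : Co A' U e
  cW : c ∈ W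
  yW : y ∈ W
  xU : x ∈ U
  yU : y ∈ U
  tx : Tv (ZZ A) x y
  tc : Tv (ZZ A') c y
  cm : ⁅c, x⁆ = y

/-- A critical walk with all its data. -/
structure Cx (E : Subgroup G → Subgroup G → Prop) (n : ℕ) (v : ℕ → Subgroup G)
    (W W' U : Subgroup G) (d d' y y' e c x : G) : Prop where
  cr : Cr E n v
  ty : Ty (v 0) (v 1) W W' d d' y y'
  mu : Mu (v 0) (v n) W U d e c x y

/-- The second phase: edge groups are 2-groups and all vertices have the local structure. -/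
structure Ph (E : Subgroup G → Subgroup G → Prop) : Prop where
  gr : Gr E
  pg : ∀ A D, E A D → IsPGroup 2 (A ⊓ D : Subgroup G)
  ty : ∀ A D, E A D → ∃ W W' d d' y y', Ty A D W W' d d' y y'

/-- Points are centralised by `O²` of the neighbour. -/
def PP (E : Subgroup G → Subgroup G → Prop) : Prop :=
  ∀ A D z, E A D → Pt A D z → O2 D ≤ C1 z

/-- The local structure over a 2-group. -/
structure T2 (A D W W' : Subgroup G) (d d' y y' : G) : Prop
    extends Ty A D W W' d d' y y' where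
  pg : IsPGroup 2 (A ⊓ D : Subgroup G)

/-- The configuration of critical distance one. -/
structure Fn (A D W W' U U' : Subgroup G) (d d' e e' y y' : G) : Prop where
  ta : T2 A D W W' d d' y y'
  td : T2 D A U U' e e' y y'
  tx : ∃ x ∈ U, Tv (ZZ A) x y
  tc : ∃ c ∈ W, Tv (ZZ D) c y

end Cfsg.Lib.Qtz
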