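import Cfsg.Agent.Qtz.T2B

set_option autoImplicit false
set_option linter.unusedSectionVars false

open scoped commutatorElement

namespace Cfsg.Lib.Qtz

open Cfsg Subgroup Cfsg.Lib.Trans Cfsg.Lib.Trans.TJ Cfsg.Lib.Gold Cfsg.Lib.Local
  Cfsg.Lib.Local.MSS Cfsg.Lib.Local.JC

universe u

variable {G : Type u} [Group G] [Finite G] {E : Subgroup G → Subgroup G → Prop} {n i j : ℕ}
  {v : ℕ → Subgroup G} {A A' B D H R S T U U' V W W' W'' X Y γ : Subgroup G}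
  {a c d d' d'' e e' g q r r' s u w x x' y y' z z' : G}

theorem EndB1_odd (h : Co A W d) (h' : Co A W' d') (hne : W ≠ W') (hc : Nat.card (ZZ A) ≤ 32)
    (hg : g ∈ A) (ho : Odd (orderOf g)) : ∃ a b, (a = 1 ∨ a = d ∨ a = d⁻¹) ∧
      (b = 1 ∨ b = d' ∨ b = d'⁻¹) ∧ g * (a * b)⁻¹ ∈ Cs (ZZ A) := by
  obtain ⟨a, ha, b, hb, e⟩ := h.cmp.1.odd_mem_of_card_le h.vt.red h'.cmp.1
    (fun e => hne (Cmp2_eq h h' e)) (by rw [h.vt.sec.card_Mo]; exact hc) (h.vt.sec.odd_hat hg ho)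
  have k : ∀ {W d} (h : Co A W d) {a : h.vt.sec.Kq}, a ∈ zpowers (h.vt.sec.hat d) →
      ∃ b, (b = 1 ∨ b = d ∨ b = d⁻¹) ∧ b ∈ A ∧ a = h.vt.sec.hat b := fun h _ ha => by
    rcases (h.cmp.1.mem_zpowers_iff h.vt.red).1 ha with rfl | rfl | rfl
    exacts [⟨1, Or.inl rfl, one_mem _, h.vt.sec.hat_one.symm⟩,
      ⟨_, Or.inr (Or.inl rfl), h.mem, rfl⟩,
      ⟨_, Or.inr (Or.inr rfl), inv_mem h.mem, (h.vt.sec.hat_inv h.mem).symm⟩]
  obtain ⟨a, a1, a2, rfl⟩ := k h ha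
  obtain ⟨b, b1, b2, rfl⟩ := k h' hb
  refine ⟨a, b, a1, b1, (h.vt.sec.hat_eq_hat' hg (mul_mem a2 b2)).1 ?_⟩
  rw [h.vt.sec.hat_mul a2 b2]; exact e

theorem T2.ns_eq (h : T2 A D W W' d d' y y') (hy : y ≠ y') (hq : QQ A = W ⊔ W') : Ns (QQ A) = A := by
  have hv := h.pa.vt
  have hAM : A ≤ Ns (QQ A) := self_le_normalizer_pCoreOf A
  refine le_antisymm ?_ hAM
  generalize hM : Ns (QQ A) = M at hAM ⊢
  have h1 : QQ A ≤ QQ M :=
    Local.le_pCoreOf ((Local.pCoreOf_le A).trans hAM) hM.ge (Local.isPGroup_pCoreOf A)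
  have hvM : Vt M := hv.mono hAM fun e => hv.q (le_bot_iff.1 (e ▸ h1))
  have hS : IsSylowIn 2 (A ⊓ D) M := h.syl.1.mono (inf_le_left.trans hAM) le_top
  have h2 : QQ M ≤ QQ A :=
    Local.pCoreOf_le_of_le ((pCoreOf_le_of_isSylowIn hS).trans inf_le_left) hAM
  have h3 : ZZ A = QQ A := le_antisymm hv.zz_le_Q (hq ▸ sup_le h.co.le h.co'.le)
  have h4 : ZZ M = ZZ A := by
    refine le_antisymm (h3 ▸ hvM.zz_le_Q.trans h2) ?_
    rw [ZZ_eq h.syl.2.1, ZZ_eq hS]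
    exact MSS.ncl_mono le_rfl hAM
  have h5 : Cs (ZZ M) ≤ A := by rw [h4, h.cs_eq]; exact Local.pCoreOf_le A
  have h6 : Nat.card (ZZ M) ≤ 32 := by
    have := Solv.card_sup_dvd_of_le_normalizer (N := W) (H := W') (h.co'.le.trans
      (hv.zz_comm.trans ((centralizer_le h.co.le).trans (centralizer_le_normalizer _))))
    rw [h.co.card, h.co'.card] at this
    rw [h4, h3, hq]
    exact (Nat.le_of_dvd (by norm_num) this).trans (by norm_num)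
  obtain ⟨x, hx, ht⟩ := h.pt
  obtain ⟨s, hs, -, hs'⟩ := h.sw
  rw [← h4] at ht
  obtain ⟨W₁, d₁, c₁, y₁⟩ := hvM.exists_co (hAM hx.1) ht
  have c₂ := c₁.cj' (hAM hs.1)
  have y₂ : y' ∈ Trans.cj s W₁ := hs' ▸ conj_mem_cj.2 y₁
  have hne : W₁ ≠ Trans.cj s W₁ := fun e => hy (c₁.tv_two h.pg (inf_le_left.trans hAM) hx
    (mul_mem (mul_mem hs hx) (inv_mem hs)) ht (hs' ▸ ht.cj' (ns_ZZ M (hAM hs.1))) y₁ (e ▸ y₂))
  have hd : d₁ ∈ A := by
    obtain ⟨a, b, ha, hb, e⟩ := EndB1_odd c₁ c₂ hne h6 (hAM h.co.mem) h.co.odd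
    have e1 : d ∈ C1 y' := mem_centralizer_singleton_iff.2 (mem_centralizer_iff.1
      (h.co.sep h.co' fun e => hy (h.toTy.eq_iff.1 e)) _ h.my').symm
    have e2 : d₁ ∈ C1 y' :=
      mem_centralizer_singleton_iff.2 (mem_centralizer_iff.1 (c₁.sep c₂ hne) _ y₂).symm
    have e3 : d * (a * b)⁻¹ ∈ C1 y' :=
      mem_centralizer_singleton_iff.2 (mem_centralizer_iff.1 e _ (c₂.le y₂)).symm
    have e4 : a ∈ C1 y' := by
      rcases ha with rfl | rfl | rfl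
      exacts [one_mem _, e2, inv_mem e2]
    have e5 := mem_centralizer_singleton_iff.1
      ((mul_mem_cancel_left e4).1 (inv_mem_iff.1 ((mul_mem_cancel_left e1).1 e3)))
    have n1 := h.toTy.symm.ne
    obtain rfl : b = 1 := by
      rcases hb with rfl | rfl | rfl
      exacts [rfl, absurd (c₂.fpf y₂ e5) n1, absurd (c₂.inv.fpf y₂ e5) n1]
    rw [mul_one] at e
    have e6 := inv_mem_iff.1 ((mul_mem_cancel_left h.co.mem).1 (h5 e))
    rcases ha with rfl | rfl | rfl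
    · exact absurd (by simpa [h4] using e) h.co.nc
    exacts [e6, inv_mem_iff.1 e6]
  have hd' : s * d₁ * s⁻¹ ∈ A := mul_mem (mul_mem hs.1 hd) (inv_mem hs.1)
  rw [← resOf_sup_sylowIn hS]
  refine sup_le (O2_le_iff.2 fun g hg ho => ?_) inf_le_left
  obtain ⟨a, b, ha, hb, e⟩ := EndB1_odd c₁ c₂ hne h6 hg ho
  refine (mul_mem_cancel_right (inv_mem (mul_mem ?_ ?_))).1 (h5 e)
  · rcases ha with rfl | rfl | rfl
    exacts [one_mem _, hd, inv_mem hd]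
  · rcases hb with rfl | rfl | rfl
    exacts [one_mem _, hd', inv_mem hd']

theorem T2.maxl (h : T2 A D W W' d d' y y') (hy : y ≠ y') (hq : QQ A = W ⊔ W') :
    IsMaximalTwoLocal A := by
  have hv := h.pa.vt
  have e := h.ns_eq hy hq
  refine ⟨⟨QQ A, Local.isPGroup_pCoreOf A, hv.q, e.symm⟩, fun N hN hA => ?_⟩
  obtain ⟨R, hR, h0, rfl⟩ := hN
  have hvN := hv.mono hA (pair_QQ_ne hR h0)
  have hS := h.syl.1.mono (inf_le_left.trans hA) le_top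
  have h2 := Local.pCoreOf_le_of_le ((pCoreOf_le_of_isSylowIn hS).trans inf_le_left) hA
  have h3 : QQ A ≤ ZZ A := hq ▸ sup_le h.co.le h.co'.le
  have h4 : QQ A ≤ QQ (Ns R) := (le_inf ((Local.pCoreOf_le A).trans hA)
    (hv.Q_le_cs.trans (centralizer_le (h2.trans h3)))).trans hvN.ch
  refine le_antisymm ?_ hA
  rw [← e, le_antisymm h4 h2]
  exact self_le_normalizer_pCoreOf _

end Cfsg.Lib.Qtz
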