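import Cfsg.Agent.Qtz.Cmp2

set_option autoImplicit false
set_option linter.unusedSectionVars false

open scoped commutatorElement

namespace Cfsg.Lib.Qtz

open Cfsg Subgroup Cfsg.Lib.Trans Cfsg.Lib.Trans.TJ Cfsg.Lib.Gold Cfsg.Lib.Local
  Cfsg.Lib.Local.MSS Cfsg.Lib.Local.JC

universe u

variable {G : Type u} [Group G] [Finite G] {E : Subgroup G → Subgroup G → Prop} {n i j : ℕ}
  {v : ℕ → Subgroup G} {A A' B D H R S T U U' V W W' W'' X Y γ : Subgroup G}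
  {a c d d' d'' e e' g q r r' s u w x x' y y' z z' : G}

theorem mu_img (h : Vt A) (hX : X ≤ A) : Nat.card (h.sec.imgK X) = (Cs (ZZ A)).relIndex X := by
  have k := h.sec.card_imgK' hX
  have l := card_mul_relIndex (inf_le_left : X ⊓ Cs (ZZ A) ≤ X)
  rw [inf_relIndex_left] at l
  exact Nat.eq_of_mul_eq_mul_left Nat.card_pos (k.symm.trans l.symm)

theorem mu_idx (X V : Subgroup G) :
    Nat.card V = (Cs X).relIndex V * Nat.card (V ⊓ Cs X : Subgroup G) := by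
  have l := card_mul_relIndex (inf_le_left : V ⊓ Cs X ≤ V)
  rw [inf_relIndex_left] at l
  rw [← l, mul_comm]

theorem off_eq (h : Vt A) (hX : X ≤ A) (he : IsElementaryAbelian 2 X)
    (hc : (Cs X).relIndex (ZZ A) ≤ (Cs (ZZ A)).relIndex X) :
    (∀ W d, Co A W d → X ≤ Ns W) ∧ (¬ X ≤ Cs (ZZ A) → ∃ x ∈ X, ∃ z, Tv (ZZ A) x z) := by
  have hr := h.red
  obtain ⟨k, a, d, hf⟩ := hr.exists_frame' (h.sec.imgK_sq_of_ea he)
  have e : Nat.card h.sec.Mo ≤ 2 ^ k * Nat.card (Ngrp.fxS h.sec.Mo (h.sec.imgK X)) := by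
    rw [h.sec.card_Mo, h.sec.card_fxS hX, ← hf.card, mu_img h hX, mu_idx X (ZZ A)]
    exact Nat.mul_le_mul_right _ hc
  have t := hf.rm8_tv hr e
  refine ⟨fun W d hW x hx => ?_, fun hn => ?_⟩
  · have l : h.sec.imgK X ≤ Ngrp.NrmD h.sec.Kq h.sec.Mo := by
      rw [← hf.gen]
      exact iSup_le fun i => zpowers_le.2 (hr.tv_mem_NrmD (t i).choose_spec)
    rw [hW.cmp.2]
    exact h.sec.mem_normalizer_pre (hX hx)
      (Ngrp.Red.invt_of_mem_NrmD (l (h.sec.hat_mem_imgK hx (hX hx))) hW.cmp.1)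
  · rcases Nat.eq_zero_or_pos k with rfl | k0
    · refine (hn fun x hx => (h.sec.hat_eq_one' (hX hx)).1 ?_).elim
      have := hf.card
      rw [pow_zero, card_eq_one] at this
      exact mem_bot.1 (this.le (h.sec.hat_mem_imgK hx (hX hx)))
    · obtain ⟨x, x1, x2, x3⟩ := h.sec.mem_imgK.1 (hf.mem ⟨0, k0⟩)
      obtain ⟨u, hu⟩ := t ⟨0, k0⟩
      obtain ⟨z, z1, rfl⟩ := h.sec.exists_bar u
      exact ⟨x, x1, z, (h.tv_iff x2 z1).2 (x3 ▸ hu)⟩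

theorem off_le (h : Vt A) (hX : X ≤ A) (he : IsElementaryAbelian 2 X) :
    (Cs (ZZ A)).relIndex X ≤ (Cs X).relIndex (ZZ A) := by
  have k := h.sec.rm8 h.red hX fun a ha => by
    rw [← pow_two, he.2 a ha]
    exact one_mem _
  rw [mu_img h hX, mu_idx X (ZZ A)] at k
  exact Nat.le_of_mul_le_mul_right k Nat.card_pos

theorem mu_tv (h : Vt A) (h1 : ZZ A' ≤ A) (hU : Co A' U e) (hn : ZZ A ≤ Ns U) (hy : y ∈ U)
    (hx : x ∈ U) (hc : c ∈ ZZ A) (hk : ⁅c, x⁆ = y) (h0 : y ≠ 1) : Tv (ZZ A) x y := by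
  have xA := h1 (hU.le hx)
  have yV : y ∈ ZZ A := by
    rw [← hk, commutatorElement_def, mul_assoc, mul_assoc, ← mul_assoc x]
    exact mul_mem hc (mem_normalizer_conj (ns_ZZ A xA) (inv_mem hc))
  have yi : y⁻¹ = y := inv_eq_of_mul_eq_one_right (hU.sq hy)
  refine Tv.of_act (by rw [hU.sq hx]; exact one_mem _) (ns_ZZ A xA) (fun k => h0 ?_) fun u hu => ?_
  · rw [← hk]
    exact commutatorElement_eq_one_iff_mul_comm.2 (k c hc)
  · rw [← commutatorElement_inv]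
    rcases hU.fix_act (hn hu) hy h0 (h.zz_comm yV u hu) hx with k | k <;> rw [k]
    exacts [.inl inv_one, .inr yi]

theorem mu_ex (hU : Co A U e) (hy : y ∈ U) (h0 : y ≠ 1) : ∃ x ∈ U, x ≠ 1 ∧ x ≠ y :=
  ⟨e * y * e⁻¹, mem_normalizer_conj hU.ns hy, fun k => h0 (conj_eq_one_iff.1 k),
    (hU.distinct hy h0).1⟩

theorem exists_mu (h : Vt A) (h' : Vt A') (h1 : ZZ A' ≤ A) (h2 : ZZ A ≤ A')
    (hn : ¬ ZZ A ≤ Cs (ZZ A')) : ∃ W U d e c x y, Mu A A' W U d e c x y := by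
  have l1 := off_le h h1 h'.ea
  have l2 := off_le h' h2 h.ea
  obtain ⟨n1, -⟩ := off_eq h h1 h'.ea l2
  obtain ⟨n2, t2⟩ := off_eq h' h2 h.ea l1
  obtain ⟨c₀, c1, y, c2⟩ := t2 hn
  obtain ⟨U, e, hU, yU⟩ := h'.exists_co (h2 c1) c2
  obtain ⟨x, xU, x1, x2⟩ := mu_ex hU yU c2.ne
  have tx := mu_tv h h1 hU (n2 _ _ hU) yU xU c1 (hU.tv_act (h2 c1) c2 yU xU x1 x2) c2.ne
  have xA := h1 (hU.le xU)
  obtain ⟨W, d, hW, yW⟩ := h.exists_co xA tx
  obtain ⟨c, cW, k1, k2⟩ := mu_ex hW yW c2.ne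
  have k := hW.tv_act xA tx yW cW k1 k2
  refine ⟨W, U, d, e, c, x, y, hW, hU, cW, yW, xU, yU, tx,
    mu_tv h' h2 hW (n1 _ _ hW) yW cW (hU.le xU) k c2.ne, ?_⟩
  rw [← commutatorElement_inv, k]
  exact inv_eq_of_mul_eq_one_right (hU.sq yU)

end Cfsg.Lib.Qtz
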