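import Cfsg.Agent.Qtz.Basic

set_option autoImplicit false
set_option linter.unusedSectionVars false

open scoped commutatorElement

namespace Cfsg.Lib.Qtz

open Cfsg Subgroup Cfsg.Lib.Trans Cfsg.Lib.Trans.TJ Cfsg.Lib.Gold Cfsg.Lib.Local
  Cfsg.Lib.Local.MSS Cfsg.Lib.Local.JC

universe u

variable {G : Type u} [Group G] [Finite G] {E : Subgroup G → Subgroup G → Prop} {n i j : ℕ}
  {v : ℕ → Subgroup G} {A A' B D H R S T U U' V W W' W'' X Y γ : Subgroup G}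
  {a c d d' d'' e e' g q r r' s u w x x' y y' z z' : G}

theorem PA.symm (h : PA A D) : PA D A := by
  obtain ⟨hy, syl, qa, qd, ma, md, un⟩ := h
  rw [inf_comm] at syl ma md
  exact ⟨hy, syl, qd, qa, md, ma, fun X Y h1 h2 h3 h4 => by
    rw [inf_comm, inf_comm D]; exact un Y X h2 h1 h4 h3⟩

theorem Mxl.cj (h : Mxl B A) (g : G) : Mxl (cj g B) (cj g A) := by
  refine ⟨cj_lt_cj.2 h.1, fun X h1 h2 => ?_⟩
  rw [← cj_cj_inv g X] at h1 h2 ⊢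
  rw [h.2 _ (cj_lt_cj.1 h1) (cj_le_cj.1 h2)]

theorem pair_QQ_cj (g : G) : QQ (cj g X) ≠ ⊥ ↔ QQ X ≠ ⊥ := by
  rw [QQ, ← Local.cj_pCoreOf, Ne, cj_eq_bot]

theorem pair_QQ_ne (hR : IsPGroup 2 R) (h0 : R ≠ ⊥) : QQ (Ns R) ≠ ⊥ := fun k =>
  h0 (eq_bot_iff.2 ((Local.le_pCoreOf le_normalizer le_rfl hR).trans k.le))

theorem PA.cj (h : PA A D) (g : G) : PA (cj g A) (cj g D) := by
  obtain ⟨hy, ⟨S, s1, s2, s3⟩, qa, qd, ma, md, un⟩ := h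
  refine ⟨hy, ⟨Trans.cj g S, cj_top g ▸ s1.cj g, ?_, ?_⟩, (pair_QQ_cj g).2 qa,
    (pair_QQ_cj g).2 qd, cj_inf g A D ▸ ma.cj g, cj_inf g A D ▸ md.cj g,
    fun X Y h1 h2 h3 h4 => ?_⟩
  · rw [← cj_inf]; exact cj_mono g s2
  · rw [← cj_inf, OZ, omZ_cj, Cs, ← cj_centralizer]; exact cj_mono g s3
  · rw [← cj_inf, ← cj_inv_le_iff_le_cj, cj_inf]
    exact un _ _ (cj_le_iff_le_cj_inv.1 h1) (cj_le_iff_le_cj_inv.1 h2) ((pair_QQ_cj _).2 h3)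
      ((pair_QQ_cj _).2 h4)

theorem PA.cj' (h : PA A D) (hg : g ∈ A) : PA A (Trans.cj g D) := by
  have := h.cj g
  rwa [cj_eq_of_mem hg] at this

theorem PA.vt (h : PA A D) : Vt A := by
  obtain ⟨S, s1, s2, -⟩ := h.syl
  exact ⟨h.hy, ⟨S, s1, s2.trans inf_le_left⟩, h.qa⟩

theorem PA.vt' (h : PA A D) : Vt D := by
  exact h.symm.vt

theorem PA.syl_of (h : PA A D) (hS : IsSylowIn 2 S (A ⊓ D)) :
    IsSylowIn 2 S ⊤ ∧ IsSylowIn 2 S A ∧ IsSylowIn 2 S D ∧ Cs (OZ S) ≤ A ⊓ D := by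
  obtain ⟨T, s1, s2, s3⟩ := h.syl
  obtain ⟨g, hg, rfl⟩ := hS.exists_cj_eq (s1.mono s2 le_top)
  have k : IsSylowIn 2 (Trans.cj g T) ⊤ := s1.cj_of_mem (mem_top g)
  refine ⟨k, k.mono (hS.le.trans inf_le_left) le_top, k.mono (hS.le.trans inf_le_right) le_top, ?_⟩
  rw [OZ, omZ_cj, Cs, ← cj_centralizer]
  exact cj_le_of_mem_of_le hg s3

theorem PA.cs_le (h : PA A D) : Cs (ZZ A) ≤ A ⊓ D := by
  obtain ⟨T, s1, s2, s3⟩ := h.syl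
  exact (centralizer_le (OZ_le_ZZ (s1.mono (s2.trans inf_le_left) le_top))).trans s3

theorem PA.Q_le (h : PA A D) : QQ A ≤ A ⊓ D := by
  exact h.vt.Q_le_cs.trans h.cs_le

theorem PA.zz_le (h : PA A D) : ZZ A ≤ A ⊓ D := by
  exact h.vt.zz_comm.trans h.cs_le

theorem PA.not_le (h : PA A D) : ¬ A ≤ D := by
  exact fun k => h.ma.1.ne (inf_eq_left.2 k)

theorem PA.gen (h : PA A D) (h1 : A ⊓ D ≤ X) (hg : g ∈ A) (hg' : g ∉ D) (hx : g ∈ X) : A ≤ X := by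
  have : A ⊓ D < A ⊓ X := lt_of_le_of_ne (le_inf inf_le_left h1) fun k =>
    hg' (k.ge ⟨hg, hx⟩).2
  exact (h.ma.2 _ this inf_le_left).ge.trans inf_le_right

theorem PA.eq_bot (h : PA A D) (hR : IsPGroup 2 R) (h1 : A ≤ Ns R) (h2 : D ≤ Ns R) : R = ⊥ := by
  by_contra h0
  have k := pair_QQ_ne hR h0
  exact h.not_le ((le_inf h1 h1).trans ((h.un _ _ h1 h2 k k).trans inf_le_right))

theorem PA.eq_bot' (h : PA A D) (hY : Y ≤ A ⊓ D) (h1 : A ≤ Ns Y) (h2 : D ≤ Ns Y) : Y = ⊥ := by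
  have k : QQ Y = ⊥ := h.eq_bot (Local.isPGroup_pCoreOf Y)
    (h1.trans (Local.normalizer_le_normalizer_pCoreOf Y))
    (h2.trans (Local.normalizer_le_normalizer_pCoreOf Y))
  have hA : Y ≤ A := hY.trans inf_le_left
  rw [QQ, Local.pCoreOf_eq_inf_of_normal hA h1] at k
  have k2 : Y ≤ QQ A := by
    refine le_trans (le_inf hA fun y hy => mem_centralizer_iff.2 fun q hq => ?_) h.vt.ch
    have : q * y * q⁻¹ * y⁻¹ ∈ QQ A ⊓ Y := by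
      refine mem_inf.2
        ⟨?_, mul_mem (mem_normalizer_conj (h1 (Local.pCoreOf_le A hq)) hy) (inv_mem hy)⟩
      have := mul_mem hq
        (mem_normalizer_conj (Local.le_normalizer_pCoreOf A (hA hy)) (inv_mem hq))
      simpa only [mul_assoc] using this
    exact commutatorElement_eq_one_iff_mul_comm.1 (mem_bot.1 (k.le this))
  exact eq_bot_iff.2 ((le_inf k2 le_rfl).trans k.le)

theorem pair_syl (hS : IsSylowIn 2 S H) (hR : R ≤ S) (hn : S ≤ Ns R) (h4 : S ⊓ O2 H ≤ R) :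
    IsSylowIn 2 R (O2 H ⊔ R) := by
  have n1 : H ≤ Ns (O2 H ⊔ R) := by
    refine (resOf_sup_isSylowIn hS).ge.trans (sup_le (le_sup_left.trans le_normalizer) ?_)
    intro s hs
    refine cj_eq_self_iff.1 ?_
    rw [cj_sup, cj_eq_self_iff.2 (self_le_normalizer_resOf H (hS.le hs)), cj_eq_self_iff.2 (hn hs)]
  have k := hS.inf_normal_of_le n1 (sup_le (Local.resOf_le H) (hR.trans hS.le))
  have e : S ⊓ (O2 H ⊔ R) = R := by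
    refine le_antisymm (fun x hx => ?_) (le_inf hR le_sup_right)
    obtain ⟨o, ho, r, hr, rfl⟩ := (Solv.mem_sup_of_le_normalizer
      ((hR.trans hS.le).trans (self_le_normalizer_resOf H))).1 hx.2
    exact mul_mem (h4 ⟨(mul_mem_cancel_right (hR hr)).1 hx.1, ho⟩) hr
  rwa [e] at k

theorem PA.push1 (h : PA A D) (hS : IsSylowIn 2 S (A ⊓ D)) (h1 : S ≤ H) (h2 : H ≤ A)
    (h3 : ¬ H ≤ D) (hR : R ≤ S) (h0 : R ≠ ⊥) (hn : D ≤ Ns R) (h4 : S ⊓ O2 H ≤ R) : False := by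
  obtain ⟨s1, s2, s3, -⟩ := h.syl_of hS
  obtain ⟨K, ⟨k1, k2, k3⟩, km⟩ := exists_minimal_of_wellFoundedLT
    (fun K : Subgroup G => S ≤ K ∧ K ≤ A ∧ ¬ K ≤ D ∧ S ⊓ O2 K ≤ R) ⟨H, h1, h2, h3, h4⟩
  have hu : UniqMax S (K ⊓ D) K := by
    refine ⟨le_inf k1 s3.le, lt_of_le_of_ne inf_le_left fun e => k3.1 (inf_eq_left.1 e),
      fun X x1 x2 => le_inf x2.le ?_⟩
    by_contra x3
    exact x2.not_ge (km ⟨x1, x2.le.trans k2, x3,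
      (inf_le_inf_left _ (Local.resOf_mono x2.le)).trans k3.2⟩ x2.le)
  have hq : QQ K ≠ ⊥ := fun e => h.qa (eq_bot_iff.2
    ((Local.pCoreOf_le_of_le ((Local.pCoreOf_le_sylowIn s2).trans k1) k2).trans e.le))
  obtain ⟨R₀, r1, r2, r3⟩ := BB.common_normal s1 (fun X => h.hy.ch S X s1) s3.le hq hu h0 hR
    (pair_syl (s1.mono k1 le_top) hR (s3.le.trans hn) k3.2) hn
  obtain ⟨g, g1, g2⟩ := SetLike.not_le_iff_exists.1 k3.1
  exact r1 (h.eq_bot (s1.isPGroup.to_le (r2.trans hR))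
    (h.gen (inf_le_right.trans (le_sup_left.trans r3)) (k2 g1) g2 (r3 (mem_sup_right g1)))
    (le_sup_left.trans r3))

theorem pair_push (h : PA A D) (hp : IsPGroup 2 (A ⊓ D : Subgroup G)) (hR : R ≤ A ⊓ D)
    (h0 : R ≠ ⊥) (hn : A ⊓ D ≤ Ns R) (h4 : A ⊓ D ⊓ O2 D ≤ R) :
    ∃ Y, D ≤ Y ∧ QQ Y ≠ ⊥ ∧ Ns R ≤ Y := by
  obtain ⟨s1, s2, s3, -⟩ := h.syl_of (isSylowIn_self hp)
  have hu : UniqMax (A ⊓ D) (A ⊓ D) D := by
    refine ⟨le_rfl, h.md.1, fun X x1 x2 => ?_⟩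
    rcases x1.eq_or_lt with e | e
    · exact e.ge
    · exact (x2.ne (h.md.2 X e x2.le)).elim
  obtain ⟨R₀, r1, r2, r3⟩ := BB.common_normal s1 (fun X => h.hy.ch _ X s1) hn h.qd hu h0 hR
    (pair_syl s3 hR hn h4) le_rfl
  exact ⟨_, le_sup_right.trans r3, pair_QQ_ne (hp.to_le (r2.trans hR)) r1, le_sup_left.trans r3⟩

theorem PA.push (h : PA A D) (hp : IsPGroup 2 (A ⊓ D : Subgroup G)) (hR : R ≤ A ⊓ D) (h0 : R ≠ ⊥)
    (hn : A ⊓ D ≤ Ns R) (h4 : A ⊓ D ⊓ O2 D ≤ R) (hX : A ≤ X) (hq : QQ X ≠ ⊥) :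
    X ⊓ Ns R ≤ A ⊓ D := by
  obtain ⟨Y, y1, y2, y3⟩ := pair_push h hp hR h0 hn h4
  exact (inf_le_inf_left _ y3).trans (h.un _ _ hX y1 hq y2)

theorem PA.push2 (h : PA A D) (hp : IsPGroup 2 (A ⊓ D : Subgroup G)) (hR : R ≤ A ⊓ D)
    (h0 : R ≠ ⊥) (hn : A ⊓ D ≤ Ns R) (h4 : A ⊓ D ⊓ O2 D ≤ R) (h5 : A ⊓ D ⊓ O2 A ≤ R) :
    Ns R ≤ A ⊓ D := by
  obtain ⟨Y, y1, y2, y3⟩ := pair_push h.symm (inf_comm A D ▸ hp) (inf_comm A D ▸ hR) h0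
    (inf_comm A D ▸ hn) (inf_comm A D ▸ h5)
  exact (le_inf y3 le_rfl).trans (h.push hp hR h0 hn h4 y1 y2)

end Cfsg.Lib.Qtz
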