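import Cfsg.Agent.Qtz.Defs
import Cfsg.Agent.QT.Rank

set_option autoImplicit false
set_option linter.unusedSectionVars false

open scoped commutatorElement

namespace Cfsg.Lib.Qtz

open Cfsg Subgroup Cfsg.Lib.Trans Cfsg.Lib.Trans.TJ Cfsg.Lib.Gold Cfsg.Lib.Local
  Cfsg.Lib.Local.MSS Cfsg.Lib.Local.JC

universe u

variable {G : Type u} [Group G] [Finite G] {E : Subgroup G → Subgroup G → Prop} {n i j : ℕ}
  {v : ℕ → Subgroup G} {A A' B D H R S T U U' V W W' W'' X Y γ : Subgroup G}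
  {a c d d' d'' e e' g q r r' s u w x x' y y' z z' : G}

/-- `2 × 2` matrices over `𝔽₃`. -/
structure Rank0M where
  /-- entry -/
  a : ZMod 3
  /-- entry -/
  b : ZMod 3
  /-- entry -/
  c : ZMod 3
  /-- entry -/
  d : ZMod 3
  deriving DecidableEq

namespace Rank0M

instance : Mul Rank0M := ⟨fun x y => ⟨x.a * y.a + x.b * y.c, x.a * y.b + x.b * y.d,
  x.c * y.a + x.d * y.c, x.c * y.b + x.d * y.d⟩⟩

instance : One Rank0M := ⟨⟨1, 0, 0, 1⟩⟩

/-- the determinant -/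
def det (x : Rank0M) : ZMod 3 := x.a * x.d - x.b * x.c

theorem key' : ∀ a1 a2 a3 a4 : ZMod 3, ∀ a : Rank0M, a = ⟨a1, a2, a3, a4⟩ → a.det = 1 →
    ∀ b1 b2 b3 b4 : ZMod 3, ∀ b : Rank0M, b = ⟨b1, b2, b3, b4⟩ → b.det = 1 →
    (∃ s ∈ [1, a, b, a * a, b * b], ∃ s' ∈ [1, a, b, a * a, b * b],
      s * s * (s' * s') ∈ [a, b, a * b]) ∨
    ∀ c1 c2 c3 c4 : ZMod 3, ∀ c : Rank0M, c = ⟨c1, c2, c3, c4⟩ → c.det ≠ 0 →
      ∃ s ∈ [1, c, a * c, b * c, c * c], ∃ s' ∈ [1, a],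
        s * s * (s' * s') ∈ [a, b, a * b, c, a * c, b * c, a * b * c] := by
  simp only [forall_eq]
  decide +kernel

theorem key (a b c : Rank0M) (ha : a.det = 1) (hb : b.det = 1) (hc : c.det ≠ 0) :
    (∃ s ∈ [1, a, b, a * a, b * b], ∃ s' ∈ [1, a, b, a * a, b * b],
      s * s * (s' * s') ∈ [a, b, a * b]) ∨
      ∃ s ∈ [1, c, a * c, b * c, c * c], ∃ s' ∈ [1, a],
        s * s * (s' * s') ∈ [a, b, a * b, c, a * c, b * c, a * b * c] :=
  (key' _ _ _ _ a rfl ha _ _ _ _ b rfl hb).imp_right fun h => h _ _ _ _ c rfl hc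

/-- the entries of a matrix -/
def of (m : GL (Fin 2) (ZMod 3)) : Rank0M := ⟨m 0 0, m 0 1, m 1 0, m 1 1⟩

theorem of_mul (m m' : GL (Fin 2) (ZMod 3)) : of (m * m') = of m * of m' := by
  simp only [of, Units.val_mul, Matrix.mul_apply, Fin.sum_univ_two]; rfl

theorem of_one : of 1 = 1 := rfl

theorem of_inj {m m' : GL (Fin 2) (ZMod 3)} (h : of m = of m') : m = m' := by
  simp only [of, Rank0M.mk.injEq] at h
  ext i j
  fin_cases i <;> fin_cases j <;> simp [h]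

theorem of_det (m : GL (Fin 2) (ZMod 3)) : (of m).det = m.1.det := (Matrix.det_fin_two _).symm

end Rank0M

/-- Three elements that are independent modulo `K`. -/
def Rank0Ind {N : Type*} [Group N] (K : Subgroup N) (a b c : N) : Prop :=
  ∀ w ∈ [a, b, a * b, c, a * c, b * c, a * b * c], w ∉ K

theorem rank0_gl {N : Type*} [Group N] [Finite N] {K : Subgroup N} [K.Normal]
    (h3 : ∀ g : N, g * g ∈ K) (ρ : N →* GL (Fin 2) (ZMod 3)) (hk : ρ.ker ≤ K) : K.index ≤ 4 := by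
  have hq : ∀ q : N ⧸ K, q * q = 1 := fun q => by
    obtain ⟨g, rfl⟩ := QuotientGroup.mk_surjective q
    exact (QuotientGroup.eq_one_iff _).2 (h3 g)
  have hc : ∀ p q : N ⧸ K, p * q = q * p := fun p q => by
    rw [← inv_eq_of_mul_eq_one_right (hq (p * q)), mul_inv_rev, inv_eq_of_mul_eq_one_right (hq p),
      inv_eq_of_mul_eq_one_right (hq q)]
  have hl : ∀ p q r : N ⧸ K, p * (q * r) = q * (p * r) := fun p q r => by
    rw [← mul_assoc, hc p, mul_assoc]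
  have hq' : ∀ p q : N ⧸ K, p * (p * q) = q := fun p q => by rw [← mul_assoc, hq, one_mul]
  have d0 : ∀ g, (ρ g).1.det ≠ 0 := fun g => (ρ g).det_ne_zero
  have dm : ∀ g h, (ρ g).1.det ≠ 1 → (ρ h).1.det ≠ 1 → (ρ (g * h)).1.det = 1 := fun g h e e' => by
    have k : ∀ x y : ZMod 3, x ≠ 0 → y ≠ 0 → x ≠ 1 → y ≠ 1 → x * y = 1 := by decide
    rw [map_mul, Units.val_mul, Matrix.det_mul]
    exact k _ _ (d0 g) (d0 h) e e'
  have k0 : ∀ l l' l'' : List N, (∃ s ∈ l.map fun g => Rank0M.of (ρ g),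
      ∃ s' ∈ l'.map fun g => Rank0M.of (ρ g), s * s * (s' * s') ∈ l''.map fun g => Rank0M.of (ρ g)) →
      ∃ w ∈ l'', w ∈ K := by
    simp only [List.mem_map]
    rintro l l' l'' ⟨_, ⟨s, -, rfl⟩, _, ⟨s', -, rfl⟩, w, hw, e⟩
    simp only [← Rank0M.of_mul, ← map_mul] at e
    exact ⟨w, hw, (mul_mem_cancel_right (inv_mem (mul_mem (h3 s) (h3 s')))).1
      (hk (by rw [MonoidHom.mem_ker, map_mul, map_inv, Rank0M.of_inj e, mul_inv_cancel]))⟩
  have k1 : ∀ a b c, Rank0Ind K a b c → (ρ a).1.det = 1 → (ρ b).1.det ≠ 1 := fun a b c h ha hb => by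
    rcases Rank0M.key _ _ (.of (ρ c)) ((Rank0M.of_det _).trans ha) ((Rank0M.of_det _).trans hb)
      (by rw [Rank0M.of_det]; exact d0 c) with e | e
    · obtain ⟨w, hw, k⟩ := k0 [1, a, b, a * a, b * b] [1, a, b, a * a, b * b] [a, b, a * b]
        (by simpa only [List.map, map_mul, Rank0M.of_mul, map_one, Rank0M.of_one] using e)
      exact h w (List.mem_append_left _ hw) k
    · obtain ⟨w, hw, k⟩ := k0 [1, c, a * c, b * c, c * c] [1, a]
        [a, b, a * b, c, a * c, b * c, a * b * c]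
        (by simpa only [List.map, map_mul, Rank0M.of_mul, map_one, Rank0M.of_one] using e)
      exact h w hw k
  have s1 : ∀ a b c, Rank0Ind K a b c → Rank0Ind K b a c ∧ Rank0Ind K a c b ∧
      Rank0Ind K a (b * c) c ∧ Rank0Ind K (a * b) b c := fun a b c h => by
    simp only [Rank0Ind, List.forall_mem_cons, List.not_mem_nil, ← QuotientGroup.eq_one_iff,
      QuotientGroup.mk_mul, mul_assoc, hq, hq', mul_one, IsEmpty.forall_iff, implies_true] at h ⊢
    simp only [hc (b : N ⧸ K) a, hl (b : N ⧸ K) a, hc (c : N ⧸ K) b]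
    tauto
  have k2 : ∀ a b c, Rank0Ind K a b c → (ρ a).1.det ≠ 1 := fun a b c h ha =>
    k1 _ _ _ (s1 a b c h).2.2.1 ha (dm _ _ (k1 a b c h ha) (k1 a c b (s1 a b c h).2.1 ha))
  have k3 : ∀ a b c, ¬ Rank0Ind K a b c := fun a b c h =>
    k2 _ _ _ (s1 a b c h).2.2.2 (dm _ _ (k2 a b c h) (k2 b a c (s1 a b c h).1))
  have k4 : ∀ p q : N ⧸ K, (∀ r, r = 1 ∨ r = p ∨ r = q ∨ r = p * q) → K.index ≤ 4 := fun p q h => by
    have := Set.ncard_le_ncard (s := Set.univ) (t := {1, p, q, p * q}) fun r _ => h r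
    have h1 := Set.ncard_insert_le 1 {p, q, p * q}
    have h2 := Set.ncard_insert_le p {q, p * q}
    have h4 := Set.ncard_insert_le q {p * q}
    rw [Set.ncard_singleton] at h4
    rw [Set.ncard_univ] at this
    unfold index
    omega
  by_contra hn
  have k5 : ∀ p q : N ⧸ K, ∃ r : N, (r : N ⧸ K) ≠ 1 ∧ r ≠ p ∧ r ≠ q ∧ r ≠ p * q := fun p q => by
    by_contra! h
    refine hn (k4 p q fun r => ?_)
    obtain ⟨r, rfl⟩ := QuotientGroup.mk_surjective r
    have := h r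
    tauto
  have k6 : ∀ p q : N ⧸ K, q ≠ p → p * q ≠ 1 := fun p q h e => h (by rw [← hq' p q, e, mul_one])
  obtain ⟨a, a1, -⟩ := k5 1 1
  obtain ⟨b, b1, b2, -⟩ := k5 a 1
  obtain ⟨c, c1, c2, c3, c4⟩ := k5 a b
  refine k3 a b c ?_
  simp only [Rank0Ind, List.forall_mem_cons, List.not_mem_nil, ← QuotientGroup.eq_one_iff,
    QuotientGroup.mk_mul, IsEmpty.forall_iff, implies_true]
  exact ⟨a1, b1, k6 _ _ b2, c1, k6 _ _ c2, k6 _ _ c3, k6 _ _ c4, trivial⟩

theorem no_e8 {N : Type u} [Group N] [Finite N] (hr : PRankLE 3 2 N) {P K : Subgroup N}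
    [P.Normal] [K.Normal] (hP : IsPGroup 3 P) (h1 : P ≤ K) (h2 : centralizer (P : Set N) ≤ K)
    (h3 : ∀ g : N, g * g ∈ K) : K.index ≤ 4 := by
  have : Fact (Nat.Prime 3) := ⟨Nat.prime_three⟩
  obtain ⟨V, _, _, _, ρ, hV, hρ⟩ := QT.exists_rho (by decide) hr
  have hk : ρ.ker ≤ K := fun g hg => by
    obtain ⟨k, hk⟩ := hρ ⟨_, mem_map_of_mem _ hg⟩
    have e : g ^ 3 ^ k ∈ (MulAut.conjNormal : N →* MulAut (pCore 3 N)).ker := by
      rw [MonoidHom.mem_ker, map_pow]; exact congrArg Subtype.val hk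
    rw [QT.ker_conjNormal] at e
    obtain ⟨m, hm⟩ := (show Odd 3 by decide).pow (n := k)
    have := h2 (centralizer_le (Solv.le_pCore inferInstance hP) e)
    rwa [hm, pow_succ, pow_mul, sq, mul_mem_cancel_left (pow_mem (h3 g) m)] at this
  obtain ⟨n, hn, hc⟩ := FT.BG4.exists_card_eq_pow_le_two (Solv.ElemAb.isPGroup 3 V) hV
  obtain ⟨e⟩ := Solv.Vec.nonempty_autEquivGL (p := 3) hc
  rcases hn.lt_or_eq with hn | rfl
  · refine (Nat.le_of_dvd (Nat.pos_of_ne_zero index_ne_zero_of_finite) (index_dvd_of_le hk)).trans ?_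
    rw [index_ker]
    refine (card_le_card_group _).trans ?_
    rw [Nat.card_congr e.toEquiv, Matrix.card_GL_field]
    interval_cases n <;> simp
  · exact rank0_gl h3 (e.toMonoidHom.comp ρ) fun g hg => hk (e.injective (hg.trans (map_one e).symm))

end Cfsg.Lib.Qtz
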