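import Cfsg.Agent.Qtz.Cmp2
import Cfsg.Agent.Qtz.Rank0

set_option autoImplicit false
set_option linter.unusedSectionVars false

open scoped commutatorElement

namespace Cfsg.Lib.Qtz

open Cfsg Subgroup Cfsg.Lib.Trans Cfsg.Lib.Trans.TJ Cfsg.Lib.Gold Cfsg.Lib.Local
  Cfsg.Lib.Local.MSS Cfsg.Lib.Local.JC

universe u

variable {G : Type u} [Group G] [Finite G] {E : Subgroup G → Subgroup G → Prop} {n i j : ℕ}
  {v : ℕ → Subgroup G} {A A' B D H R S T U U' V W W' W'' X Y γ : Subgroup G}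
  {a c d d' d'' e e' g q r r' s u w x x' y y' z z' : G}

namespace Rank

theorem dbl (h : X ≤ Y) (hx : x ∈ Y) (hn : x ∉ X) : 2 * Nat.card X ≤ Nat.card Y := by
  obtain ⟨k, e⟩ := card_dvd_of_le h
  have := card_lt_of_lt (lt_of_le_not_ge h fun l => hn (l hx))
  rw [e] at this ⊢
  rw [mul_comm 2]
  exact Nat.mul_le_mul_left _ (Nat.lt_of_mul_lt_mul_left (by rwa [mul_one]))

theorem sq3 (d3 : d ^ 3 = 1) (hg : g ∈ Ns (zpowers d)) : g * g * d = d * (g * g) := by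
  obtain ⟨k, e⟩ := mem_normalizer_conj hg (mem_zpowers d)
  have e : d ^ (k % 3) = g * d * g⁻¹ := (zpow_eq_zpow_emod k (by exact_mod_cast d3)).symm.trans e
  rw [← mul_inv_eq_iff_eq_mul, show g * g * d * (g * g)⁻¹ = g * (g * d * g⁻¹) * g⁻¹ by group, ← e, ← conj_zpow, ← e,
    ← zpow_mul]
  rcases (by omega : k % 3 = 0 ∨ k % 3 = 1 ∨ k % 3 = 2) with l | l | l <;> rw [l] at e ⊢
  · rw [zpow_zero, eq_comm, conj_eq_one_iff] at e
    simp [e]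
  · simp
  · rw [show (2 : ℤ) * 2 = (3 : ℕ) + 1 by norm_num, zpow_add_one, zpow_natCast, d3, one_mul]

theorem abs {Q : Type u} [Group Q] [Finite Q] (hr : PRankLE 3 2 G) (φ : G →* Q) (d x : Fin 3 → G)
    (cube : ∀ i, φ (d i) ^ 3 = 1) (ne : ∀ i, φ (d i) ≠ 1) (comm : ∀ i j, φ (d i) * φ (d j) = φ (d j) * φ (d i))
    (inv : ∀ i, φ (x i) * φ (d i) * (φ (x i))⁻¹ = (φ (d i))⁻¹)
    (sep : ∀ i j, i ≠ j → φ (x i) * φ (d j) * (φ (x i))⁻¹ = φ (d j)) : False := by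
  have : Fact (Nat.Prime 3) := ⟨Nat.prime_three⟩
  let D := closure (Set.range fun i => φ (d i))
  have mD : ∀ i, φ (d i) ∈ D := fun i => subset_closure ⟨i, rfl⟩
  have cD : ∀ q ∈ D, ∀ i, q * φ (d i) = φ (d i) * q := fun q hq i => mem_centralizer_singleton_iff.1 ((closure_le (C1 _)).2 (by
    rintro _ ⟨j, rfl⟩; exact mem_centralizer_singleton_iff.2 (comm j i)) hq)
  have D3 : IsPGroup 3 D := fun q => ⟨1, Subtype.ext (by
    obtain ⟨q, hq⟩ := q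
    change q ^ 3 = 1
    induction hq using closure_induction with
    | mem q hq => obtain ⟨i, rfl⟩ := hq; exact cube i
    | one => exact one_pow 3
    | mul a b ha hb ea eb => rw [Commute.mul_pow (mem_centralizer_singleton_iff.1 ((closure_le (C1 b)).2 (by
        rintro _ ⟨j, rfl⟩; exact mem_centralizer_singleton_iff.2 (cD b hb j).symm) ha)), ea, eb, one_mul]
    | inv a _ ea => rw [inv_pow, ea, inv_one])⟩
  obtain ⟨P, hP⟩ := exists_isSylowIn (p := 3) (D.comap φ)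
  have PD : ∀ i, φ (d i) ∈ P.map φ := fun i =>
    ((hP.map φ).eq_of_le (D3.to_le (map_comap_le _ _)) (hP.map φ).le le_rfl).le (mem_map_of_mem φ (mD i))
  let L : Subgroup G := ⨅ i, (Ns (zpowers (φ (d i)))).comap φ
  have mL : ∀ {g}, (∀ i, φ g * φ (d i) * (φ g)⁻¹ ∈ zpowers (φ (d i))) → g ∈ L := fun k => mem_iInf.2 fun i =>
    mem_normalizer_of_cj_le (by rw [cj_zpowers]; exact zpowers_le.2 (k i))
  have DL : D.comap φ ≤ L := fun g hg => mL fun i => by rw [cD _ hg, mul_inv_cancel_right]; exact mem_zpowers _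
  have ex : ∀ i, ∃ n : (L ⊓ Ns P : Subgroup G), ∀ j, φ n * φ (d j) * (φ n)⁻¹ = φ (x i) * φ (d j) * (φ (x i))⁻¹ := by
    intro i
    have xL : x i ∈ L := mL fun j => by
      by_cases e : i = j
      · rw [← e, inv]; exact inv_mem (mem_zpowers _)
      · rw [sep i j e]; exact mem_zpowers _
    obtain ⟨n, hn, k, hk, e⟩ := hP.frattini' (le_normalizer_comap φ (show φ (x i) ∈ Ns D from
      mem_normalizer_of_cj_le (by
        rw [cj_closure, closure_le]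
        rintro _ ⟨_, ⟨j, rfl⟩, rfl⟩
        exact zpowers_le.2 (mD j) (mem_normalizer_conj (mem_iInf.1 xL j) (mem_zpowers _)))))
    refine ⟨⟨n, (mul_mem_cancel_right (DL hk)).1 (e ▸ xL), hn⟩, fun j => ?_⟩
    change φ n * _ * (φ n)⁻¹ = _
    rw [e, map_mul, mul_assoc (φ n) (φ k), cD _ hk]
    group
  choose n hn using ex
  let K : Fin 3 → Subgroup (L ⊓ Ns P : Subgroup G) := fun i => (C1 (φ (d i))).comap (φ.comp (Subgroup.subtype _))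
  have mK : ∀ {i g}, g ∈ K i ↔ φ g * φ (d i) = φ (d i) * φ g := mem_centralizer_singleton_iff
  have k1 : ∀ i j, i ≠ j → n i ∈ K j := fun i j e => mK.2 (mul_inv_eq_iff_eq_mul.1 ((hn i j).trans (sep i j e)))
  have k2 : ∀ i, n i ∉ K i := fun i k => ne i (by
    have e := (hn i i).trans (inv i)
    rw [mK.1 k, mul_inv_cancel_right, eq_inv_iff_mul_eq_one] at e
    rw [← cube i, pow_succ, pow_two, e, one_mul])
  have all : ∀ {g}, (∀ i, φ g.1 * φ (d i) = φ (d i) * φ g.1) → g ∈ K 0 ⊓ K 1 ⊓ K 2 := fun k =>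
    ⟨⟨mK.2 (k 0), mK.2 (k 1)⟩, mK.2 (k 2)⟩
  have sq : ∀ g, g * g ∈ K 0 ⊓ K 1 ⊓ K 2 := fun g => all fun i => by
    rw [coe_mul, map_mul]; exact sq3 (cube i) (mem_iInf.1 g.2.1 i)
  have : (K 0 ⊓ K 1 ⊓ K 2).Normal := ⟨fun k hk g => by
    rw [show g * k * g⁻¹ = g * k * (g * k) * k⁻¹ * (g⁻¹ * g⁻¹) by group]
    exact mul_mem (mul_mem (sq _) (inv_mem hk)) (sq _)⟩
  have : (P.subgroupOf (L ⊓ Ns P)).Normal := normal_subgroupOf_of_le_normalizer inf_le_right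
  have b := no_e8 (FT.BG4.pRankLE_subgroup hr (L ⊓ Ns P)) (isPGroup_subgroupOf hP.isPGroup _)
    (fun g hg => all (cD _ (hP.le hg))) (fun g hg => all fun i => by
      obtain ⟨p, hp, e⟩ := PD i
      rw [← e, ← map_mul, ← map_mul]
      exact congrArg (fun a => φ a.1) (mem_centralizer_iff.1 hg ⟨p, DL (hP.le hp), le_normalizer hp⟩ hp).symm) sq
  have c1 := dbl (X := K 0 ⊓ K 1 ⊓ K 2) inf_le_left ⟨k1 2 0 (by decide), k1 2 1 (by decide)⟩ fun k => k2 2 k.2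
  have c2 := dbl (X := K 0 ⊓ K 1) inf_le_left (k1 1 0 (by decide)) fun k => k2 1 k.2
  have c3 := dbl le_top (mem_top _) (k2 0)
  have c4 := (K 0 ⊓ K 1 ⊓ K 2).card_mul_index
  have c5 := Nat.mul_le_mul_left (Nat.card (K 0 ⊓ K 1 ⊓ K 2 : Subgroup _)) b
  have c6 : 0 < Nat.card (K 0 ⊓ K 1 ⊓ K 2 : Subgroup _) := Nat.card_pos
  rw [card_top] at c3
  omega

end Rank

theorem Co.not_three {W₁ W₂ W₃ : Subgroup G} {d₁ d₂ d₃ x₁ x₂ x₃ z₁ z₂ z₃ : G} (h₁ : Co A W₁ d₁)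
    (h₂ : Co A W₂ d₂) (h₃ : Co A W₃ d₃) (m₁ : x₁ ∈ A) (m₂ : x₂ ∈ A) (m₃ : x₃ ∈ A)
    (t₁ : Tv (ZZ A) x₁ z₁) (t₂ : Tv (ZZ A) x₂ z₂) (t₃ : Tv (ZZ A) x₃ z₃) (k₁ : z₁ ∈ W₁)
    (k₂ : z₂ ∈ W₂) (k₃ : z₃ ∈ W₃) (n₁ : W₁ ≠ W₂) (n₂ : W₁ ≠ W₃) (n₃ : W₂ ≠ W₃) : False := by
  let φ := (ZZ A).normalizerMonoidHom.comp (inclusion (ns_ZZ A))
  have ker : ∀ g : A, φ g = 1 ↔ g.1 ∈ Cs (ZZ A) := fun g =>
    (MonoidHom.mem_ker (f := (ZZ A).normalizerMonoidHom)).symm.trans (by rw [normalizerMonoidHom_ker]; rfl)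
  let W := ![W₁, W₂, W₃]
  let z := ![z₁, z₂, z₃]
  let d : Fin 3 → A := ![⟨d₁, h₁.mem⟩, ⟨d₂, h₂.mem⟩, ⟨d₃, h₃.mem⟩]
  let x : Fin 3 → A := ![⟨x₁, m₁⟩, ⟨x₂, m₂⟩, ⟨x₃, m₃⟩]
  have h : ∀ i, Co A (W i) (d i) ∧ Tv (ZZ A) (x i) (z i) ∧ z i ∈ W i := fun i => by
    fin_cases i
    exacts [⟨h₁, t₁, k₁⟩, ⟨h₂, t₂, k₂⟩, ⟨h₃, t₃, k₃⟩]
  have n : ∀ i j, i ≠ j → W i ≠ W j := fun i j e => by
    fin_cases i <;> fin_cases j
    exacts [absurd rfl e, n₁, n₂, n₁.symm, absurd rfl e, n₃, n₂.symm, n₃.symm, absurd rfl e]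
  refine Rank.abs (h₁.vt.hy.qt A h₁.vt.q) φ d x (fun i => ?_) (fun i k => (h i).1.nc ((ker _).1 k)) (fun i j => ?_)
    (fun i => ?_) fun i j e => ?_
  · rw [← map_pow, ker]; exact (h i).1.cube
  · rw [← commutatorElement_eq_one_iff_mul_comm, ← map_commutatorElement, ker]; exact (h i).1.comm (h j).1
  · rw [eq_inv_iff_mul_eq_one, ← map_inv, ← map_mul, ← map_mul, ← map_mul, ker]
    exact (h i).1.tv_inv (x i).2 (h i).2.1 (h i).2.2
  · rw [← mul_inv_eq_one, ← commutatorElement_def, ← map_commutatorElement, ker]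
    exact (h j).1.comm_of_cent (x i).2 ((h j).1.tv_sep (x i).2 (h i).2.1 fun k =>
      n i j e ((h i).1.eq_of_mem (h j).1 (h i).2.2 k (h i).2.1.ne))

theorem Co.orbit (h : Co A W d) (hx : x ∈ A) (ht : Tv (ZZ A) x z) (hz : z ∈ W) :
    ∃ k ∈ A, ∀ g ∈ A, (Trans.cj g W = W ∧ Trans.cj g (Trans.cj k W) = Trans.cj k W) ∨
      (Trans.cj g W = Trans.cj k W ∧ Trans.cj g (Trans.cj k W) = W) := by
  by_cases c : ∀ g ∈ A, Trans.cj g W = W
  · exact ⟨1, one_mem _, fun g hg => .inl ⟨c g hg, by rw [cj_one, c g hg]⟩⟩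
  push Not at c
  obtain ⟨k, hk, ne⟩ := c
  have two : ∀ g ∈ A, Trans.cj g W = W ∨ Trans.cj g W = Trans.cj k W := fun g hg => by
    by_contra! l
    exact h.not_three (h.cj' hk) (h.cj' hg) hx (mul_mem (mul_mem hk hx) (inv_mem hk))
      (mul_mem (mul_mem hg hx) (inv_mem hg)) ht (ht.cj' (ns_ZZ A hk)) (ht.cj' (ns_ZZ A hg)) hz (conj_mem_cj.2 hz)
      (conj_mem_cj.2 hz) ne.symm l.1.symm l.2.symm
  refine ⟨k, hk, fun g hg => ?_⟩
  have l := two _ (mul_mem hg hk)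
  rw [cj_mul] at l
  exact (two g hg).imp (fun e => ⟨e, l.resolve_left fun e' => ne (cj_injective g (e'.trans e.symm))⟩)
    fun e => ⟨e, l.resolve_right fun e' => ne (cj_injective g (e'.trans e.symm))⟩

end Cfsg.Lib.Qtz
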