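import Cfsg.Agent.Qtz.Basic

set_option autoImplicit false
set_option linter.unusedSectionVars false

open scoped commutatorElement

namespace Cfsg.Lib.Qtz

open Cfsg Subgroup Cfsg.Lib.Trans Cfsg.Lib.Trans.TJ Cfsg.Lib.Gold Cfsg.Lib.Local
  Cfsg.Lib.Local.MSS Cfsg.Lib.Local.JC

universe u

variable {G : Type u} [Group G] [Finite G] {E : Subgroup G → Subgroup G → Prop} {n i j : ℕ}
  {v : ℕ → Subgroup G} {A A' B D H R S T U U' V W W' W'' X Y γ : Subgroup G}
  {a c d d' d'' e e' g q r r' s u w x x' y y' z z' : G}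

theorem sh0_aux {N : Type u} [Group N] [Finite N] (h : ∀ l : N, ∃ m, Odd m ∧ l ^ m ∈ center N) :
    ∃ O : Subgroup N, (∀ l, Odd (orderOf l) → l ∈ O) ∧ ∀ l ∈ O, ∀ k, l ^ 2 ^ k = 1 → l = 1 := by
  have hm : Odd (center N).index := by
    rw [← Nat.not_even_iff_odd, even_iff_two_dvd]
    intro h2
    obtain ⟨x, hx⟩ := exists_prime_orderOf_dvd_card' 2 h2
    obtain ⟨l, rfl⟩ := QuotientGroup.mk'_surjective (center N) x
    obtain ⟨m, h1, h3⟩ := h l
    have := orderOf_dvd_of_pow_eq_one ((map_pow (QuotientGroup.mk' (center N)) l m).symm.trans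
      ((QuotientGroup.eq_one_iff _).2 h3))
    exact h1.not_two_dvd_nat (hx ▸ this)
  have hf : ∀ a b : N, (a * b) ^ (center N).index = a ^ (center N).index * b ^ (center N).index :=
    fun a b => congrArg Subtype.val (map_mul (MonoidHom.transferCenterPow N) a b)
  refine ⟨{ carrier := {l | Odd (orderOf (l ^ (center N).index))}
            mul_mem' := fun {a b} ha hb => ?_
            one_mem' := by simp
            inv_mem' := fun {a} ha => by simpa using ha }, fun l hl => ?_, fun l hl k hk => ?_⟩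
  · rw [Set.mem_setOf_eq, hf]
    exact Odd.of_dvd_nat (ha.mul hb) (Commute.orderOf_mul_dvd_mul_orderOf
      (mem_center_iff.1 ((center N).pow_index_mem b) _))
  · exact Odd.of_dvd_nat hl (orderOf_pow_dvd _)
  · have h1 : Odd (orderOf l) := Odd.of_dvd_nat (hm.mul hl)
      (orderOf_dvd_of_pow_eq_one (by rw [pow_mul, pow_orderOf_eq_one]))
    exact orderOf_eq_one_iff.1 (((Nat.coprime_two_right.2 h1).pow_right k).eq_one_of_dvd
      (orderOf_dvd_of_pow_eq_one hk))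

theorem two_mem_of_central {L C K : Subgroup G} (h1 : C ≤ K) (h2 : K ≤ L) (h3 : L ≤ Ns C)
    (h4 : L ≤ Ns K) (h5 : ∀ l ∈ L, ∀ k ∈ K, ⁅l, k⁆ ∈ C) (h6 : ∀ k ∈ K, k * k ∈ C)
    (h7 : ∀ l ∈ L, ∃ m, Odd m ∧ l ^ m ∈ K) (hR : IsPGroup 2 R) : R ⊓ O2 L ≤ C := by
  have := (normal_subgroupOf_iff_le_normalizer (h1.trans h2)).2 h3
  obtain ⟨O, a1, a2⟩ := sh0_aux (N := L ⧸ C.subgroupOf L) fun l => by
    obtain ⟨l, rfl⟩ := QuotientGroup.mk'_surjective _ l
    obtain ⟨m, b1, b2⟩ := h7 l l.2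
    refine ⟨m, b1, mem_center_iff.2 fun y => ?_⟩
    obtain ⟨y, rfl⟩ := QuotientGroup.mk'_surjective _ y
    rw [← commutatorElement_eq_one_iff_mul_comm, ← map_pow, ← map_commutatorElement]
    exact (QuotientGroup.eq_one_iff _).2 (h5 y y.2 _ b2)
  have a3 : O2 L ≤ (O.comap (QuotientGroup.mk' _)).map L.subtype := O2_le_iff.2 fun g hg ho =>
    ⟨⟨g, hg⟩, a1 _ (Odd.of_dvd_nat (by rwa [← orderOf_coe]) (orderOf_map_dvd _ _)), rfl⟩
  intro x hx
  obtain ⟨l, hl, rfl⟩ := a3 hx.2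
  obtain ⟨k, hk⟩ := hR ⟨_, hx.1⟩
  refine (QuotientGroup.eq_one_iff l).1 (a2 _ hl k ?_)
  rw [← QuotientGroup.mk_pow, show l ^ 2 ^ k = 1 from
    Subtype.ext (congrArg (Subtype.val : R → G) hk), QuotientGroup.mk_one]

end Cfsg.Lib.Qtz
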