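import Cfsg.Agent.Qtz.Pair

set_option autoImplicit false
set_option linter.unusedSectionVars false

open scoped commutatorElement

namespace Cfsg.Lib.Qtz

open Cfsg Subgroup Cfsg.Lib.Trans Cfsg.Lib.Trans.TJ Cfsg.Lib.Gold Cfsg.Lib.Local
  Cfsg.Lib.Local.MSS Cfsg.Lib.Local.JC

universe u

variable {G : Type u} [Group G] [Finite G] {E : Subgroup G → Subgroup G → Prop} {n i j : ℕ}
  {v : ℕ → Subgroup G} {A A' B D H R S T U U' V W W' W'' X Y γ : Subgroup G}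
  {a c d d' d'' e e' g q r r' s u w x x' y y' z z' : G}

theorem start_max (hq : QQ X ≠ ⊥) : ∃ M, IsMaximalTwoLocal M ∧ X ≤ M := by
  obtain ⟨M, h1, h2⟩ := exists_maximal_ge_of_wellFoundedGT (fun M : Subgroup G => IsTwoLocal M)
    (Ns (QQ X)) ⟨_, Local.isPGroup_pCoreOf X, hq, rfl⟩
  exact ⟨M, ⟨h2.prop, fun N hN k => le_antisymm (h2.le_of_ge hN k) k⟩,
    (Local.le_normalizer_pCoreOf X).trans h1⟩

theorem start_min (h : B < X) : ∃ A, A ≤ X ∧ Mxl B A := by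
  obtain ⟨A, h1, h2⟩ := exists_minimal_le_of_wellFoundedLT (fun A : Subgroup G => B < A) X h
  exact ⟨A, h1, h2.prop, fun Y y1 y2 => le_antisymm y2 (h2.le_of_le y1 y2)⟩

theorem exists_pa (hy : Hy G) (hT : IsSylowIn 2 T ⊤) {M₁ M₂ : Subgroup G}
    (h1 : M₁ ∈ maxTwoLocalsContaining (Cs (OZ T)))
    (h2 : M₂ ∈ maxTwoLocalsContaining (Cs (OZ T))) (hne : M₁ ≠ M₂) : ∃ A D : Subgroup G, PA A D := by
  obtain ⟨B, ⟨N₁, N₂, n1, n2, n3, rfl⟩, hm⟩ := exists_maximal_of_wellFoundedGT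
    (fun B : Subgroup G => ∃ N₁ N₂ : Subgroup G, N₁ ∈ maxTwoLocalsContaining (Cs (OZ T)) ∧
      N₂ ∈ maxTwoLocalsContaining (Cs (OZ T)) ∧ N₁ ≠ N₂ ∧ B = N₁ ⊓ N₂) ⟨_, M₁, M₂, h1, h2, hne, rfl⟩
  have hTC : T ≤ Cs (OZ T) :=
    fun s hs => mem_centralizer_iff.2 fun z hz => ((mem_OZ.1 hz).2.1 s hs).symm
  have hC : Cs (OZ T) ≤ N₁ ⊓ N₂ := le_inf n1.2 n2.2
  obtain ⟨A, a1, a2⟩ := start_min (B := N₁ ⊓ N₂) (lt_of_le_of_ne inf_le_left fun e =>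
    n3 (n1.1.2 _ n2.1.1 (inf_eq_left.1 e)).symm)
  obtain ⟨D, d1, d2⟩ := start_min (B := N₁ ⊓ N₂) (lt_of_le_of_ne inf_le_right fun e =>
    n3 (n2.1.2 _ n1.1.1 (inf_eq_right.1 e)))
  have e : A ⊓ D = N₁ ⊓ N₂ := le_antisymm (inf_le_inf a1 d1) (le_inf a2.1.le d2.1.le)
  have q : ∀ N X : Subgroup G, N ∈ maxTwoLocalsContaining (Cs (OZ T)) → N₁ ⊓ N₂ < X → X ≤ N →
      QQ X ≠ ⊥ := by
    rintro N X ⟨⟨⟨R, r1, r2, rfl⟩, -⟩, k⟩ x1 x2 x3
    exact pair_QQ_ne r1 r2 (eq_bot_iff.2 ((Local.pCoreOf_le_of_le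
      ((Local.pCoreOf_le_sylowIn (hT.mono (hTC.trans k) le_top)).trans
        (hTC.trans (hC.trans x1.le))) x2).trans x3.le))
  have u : ∀ N A X : Subgroup G, N ∈ maxTwoLocalsContaining (Cs (OZ T)) → N₁ ⊓ N₂ < A → A ≤ N →
      A ≤ X → QQ X ≠ ⊥ → X ≤ N := by
    intro N A X hN x1 x2 x3 x4
    obtain ⟨M, m1, m2⟩ := start_max x4
    by_cases k : M = N
    · exact k ▸ m2
    · have l : A ≤ M ⊓ N := le_inf (x3.trans m2) x2
      exact (x1.not_ge (l.trans (hm ⟨M, N, ⟨m1, hC.trans (x1.le.trans (x3.trans m2))⟩, hN, k, rfl⟩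
        (x1.le.trans l)))).elim
  refine ⟨A, D, hy, ⟨T, hT, e ▸ hTC.trans hC, e ▸ hC⟩, q _ _ n1 a2.1 a1, q _ _ n2 d2.1 d1,
    e ▸ a2, e ▸ d2, fun X Y x1 y1 x2 y2 => ?_⟩
  rw [e]
  exact inf_le_inf (u _ _ _ n1 a2.1 a1 x1 x2) (u _ _ _ n2 d2.1 d1 y1 y2)

theorem exists_gr (h : PA A D) : ∃ E : Subgroup G → Subgroup G → Prop, Gr E ∧ E A D := by
  refine ⟨fun A' D' => ∃ g, (A' = cj g A ∧ D' = cj g D) ∨ (A' = cj g D ∧ D' = cj g A),
    ⟨?_, ?_, ?_, ?_⟩, 1, .inl ⟨(cj_one _).symm, (cj_one _).symm⟩⟩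
  · rintro _ _ ⟨g, ⟨rfl, rfl⟩ | ⟨rfl, rfl⟩⟩
    exacts [h.cj g, h.symm.cj g]
  · rintro _ _ ⟨g, ⟨rfl, rfl⟩ | ⟨rfl, rfl⟩⟩
    exacts [⟨g, .inr ⟨rfl, rfl⟩⟩, ⟨g, .inl ⟨rfl, rfl⟩⟩]
  · rintro _ _ k ⟨g, ⟨rfl, rfl⟩ | ⟨rfl, rfl⟩⟩
    exacts [⟨k * g, .inl ⟨cj_cj _ _ _, cj_cj _ _ _⟩⟩, ⟨k * g, .inr ⟨cj_cj _ _ _, cj_cj _ _ _⟩⟩]
  · have e : ∀ (g k : G) (X : Subgroup G), cj k X = cj (k * g⁻¹) (cj g X) := fun g k X => by
      rw [cj_cj, inv_mul_cancel_right]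
    rintro _ _ _ _ ⟨g, ⟨rfl, rfl⟩ | ⟨rfl, rfl⟩⟩ ⟨k, ⟨rfl, rfl⟩ | ⟨rfl, rfl⟩⟩
    exacts [⟨_, .inl ⟨e g k _, e g k _⟩⟩, ⟨_, .inr ⟨e g k _, e g k _⟩⟩,
      ⟨_, .inr ⟨e g k _, e g k _⟩⟩, ⟨_, .inl ⟨e g k _, e g k _⟩⟩]

theorem start_walk (h : Relation.ReflTransGen E X Y) :
    X = Y ∨ ∃ m w, 0 < m ∧ Wk E m w ∧ w 0 = X ∧ w m = Y := by
  induction h using Relation.ReflTransGen.head_induction_on with
  | refl => exact .inl rfl
  | @head a b k _ ih =>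
    right
    rcases ih with rfl | ⟨m, w, m0, hw, rfl, rfl⟩
    · exact ⟨1, cons a fun _ => b, one_pos, fun i hi => by
        obtain rfl : i = 0 := by omega
        exact k, rfl, rfl⟩
    · refine ⟨m + 1, cons a w, by omega, fun i hi => ?_, rfl, rfl⟩
      rcases i with _ | i
      · exact k
      · exact hw i (by omega)

theorem exists_cr (h : Gr E) (hE : E A D) : ∃ n v, Cr E n v := by
  classical
  by_cases hc : ∃ m, 0 < m ∧ ∃ w, Wk E m w ∧ ¬ ZZ (w 0) ≤ Cs (ZZ (w m))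
  · obtain ⟨h1, w, h2, h3⟩ := Nat.find_spec hc
    refine ⟨_, w, h, h1, h2, fun m w' m0 hm hw => ?_, h3⟩
    by_contra k
    exact Nat.find_min hc hm ⟨m0, w', hw, k⟩
  exfalso
  have pa := h.pa _ _ hE
  have sy : ∀ {X Y}, Relation.ReflTransGen E X Y → Relation.ReflTransGen E Y X := fun k => by
    induction k with
    | refl => exact .refl
    | tail _ l ih => exact .head (h.symm _ _ l) ih
  have vt : ∀ X, Relation.ReflTransGen E A X → Vt X := fun X k => by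
    rcases k.cases_tail with rfl | ⟨b, -, k⟩
    exacts [pa.vt, (h.pa _ _ k).vt']
  have cm : ∀ X Y, Relation.ReflTransGen E A X → Relation.ReflTransGen E A Y →
      ZZ X ≤ Cs (ZZ Y) := fun X Y k l => by
    rcases start_walk ((sy k).trans l) with rfl | ⟨m, w, m0, hw, rfl, rfl⟩
    · exact (vt _ k).zz_comm
    · by_contra e
      exact hc ⟨m, m0, w, hw, e⟩
  have cjr : ∀ (g : G) X Y, Relation.ReflTransGen E X Y →
      Relation.ReflTransGen E (cj g X) (cj g Y) := fun g X Y k => by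
    induction k with
    | refl => exact .refl
    | tail _ l ih => exact ih.tail (h.cj _ _ g l)
  set Y : Subgroup G := ⨆ (X : Subgroup G) (_ : Relation.ReflTransGen E A X), ZZ X with hY
  have ab : Y ≤ Cs Y := iSup₂_le fun X k => Subgroup.le_centralizer_iff.1
    (iSup₂_le fun X' k' => cm _ _ k' k)
  have sq : ∀ y ∈ Y, y * y = 1 := by
    let K : Subgroup G :=
      { carrier := {y | y ∈ Y ∧ y * y = 1}
        one_mem' := ⟨one_mem _, mul_one _⟩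
        mul_mem' := fun {a b} ha hb => ⟨mul_mem ha.1 hb.1, by
          have := ab ha.1 b hb.1
          calc a * b * (a * b) = a * (b * a) * b := by group
            _ = a * a * (b * b) := by rw [this]; group
            _ = 1 := by rw [ha.2, hb.2, mul_one]⟩
        inv_mem' := fun {a} ha => ⟨inv_mem ha.1, by rw [← mul_inv_rev, ha.2, inv_one]⟩ }
    have : Y ≤ K := iSup₂_le fun X k y hy =>
      ⟨le_iSup₂_of_le (f := fun X (_ : Relation.ReflTransGen E A X) => ZZ X) X k le_rfl hy,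
        (vt _ k).zz_sq hy⟩
    exact fun y hy => (this hy).2
  have nm : ∀ g, Relation.ReflTransGen E A (cj g A) → g ∈ Ns Y := fun g k => by
    refine mem_normalizer_of_cj_le ?_
    rw [cj_le_iff_le_cj_inv]
    refine iSup₂_le fun X l => ?_
    rw [← cj_le_iff_le_cj_inv, ← ZZ_cj]
    exact le_iSup₂_of_le (f := fun X (_ : Relation.ReflTransGen E A X) => ZZ X) _
      (k.trans (cjr g _ _ l)) le_rfl
  have : Y = ⊥ := by
    refine pa.eq_bot (fun y => ⟨1, Subtype.ext (by simpa [pow_two] using sq y y.2)⟩)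
      (fun g hg => nm g (by rw [cj_eq_of_mem hg])) fun g hg => nm g ?_
    have := h.cj _ _ g (h.symm _ _ hE)
    rw [cj_eq_of_mem hg] at this
    exact (Relation.ReflTransGen.single hE).tail this
  exact pa.vt.zz_ne (eq_bot_iff.2 ((le_iSup₂_of_le
    (f := fun X (_ : Relation.ReflTransGen E A X) => ZZ X) A .refl le_rfl).trans this.le))

end Cfsg.Lib.Qtz
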