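import Cfsg.Agent.Qtz.TyB

set_option autoImplicit false
set_option linter.unusedSectionVars false

open scoped commutatorElement

namespace Cfsg.Lib.Qtz

open Cfsg Subgroup Cfsg.Lib.Trans Cfsg.Lib.Trans.TJ Cfsg.Lib.Gold Cfsg.Lib.Local
  Cfsg.Lib.Local.MSS Cfsg.Lib.Local.JC

universe u

variable {G : Type u} [Group G] [Finite G] {E : Subgroup G → Subgroup G → Prop} {n i j : ℕ}
  {v : ℕ → Subgroup G} {A A' B D H R S T U U' V W W' W'' X Y γ : Subgroup G}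
  {a c d d' d'' e e' g q r r' s u w x x' y y' z z' : G}

theorem T2.symm (h : T2 A D W W' d d' y y') : T2 A D W' W d' d y' y :=
  ⟨h.toTy.symm, h.pg⟩

theorem T2.cj' (h : T2 A D W W' d d' y y') (hg : g ∈ A) :
    T2 A (Trans.cj g D) (Trans.cj g W) (Trans.cj g W') (g * d * g⁻¹) (g * d' * g⁻¹) (g * y * g⁻¹)
      (g * y' * g⁻¹) := by
  refine ⟨h.toTy.cj' hg, ?_⟩
  have := isPGroup_cj h.pg g
  rwa [cj_inf, cj_eq_of_mem hg] at this

theorem Ph.t2 (h : Ph E) (hE : E A D) : ∃ W W' d d' y y', T2 A D W W' d d' y y' := by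
  obtain ⟨W, W', d, d', y, y', k⟩ := h.ty A D hE
  exact ⟨W, W', d, d', y, y', k, h.pg A D hE⟩

theorem T2.syl (h : T2 A D W W' d d' y y') :
    IsSylowIn 2 (A ⊓ D) ⊤ ∧ IsSylowIn 2 (A ⊓ D) A ∧ IsSylowIn 2 (A ⊓ D) D := by
  obtain ⟨h1, h2, h3, -⟩ := h.pa.syl_of (isSylowIn_self h.pg)
  exact ⟨h1, h2, h3⟩

theorem t2b_cs (h : PA A D) (hp : IsPGroup 2 (A ⊓ D : Subgroup G)) : Cs (ZZ A) = QQ A :=
  le_antisymm (Local.le_pCoreOf (h.cs_le.trans inf_le_left)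
    ((ns_ZZ A).trans (Trans.normalizer_le_normalizer_centralizer _)) (hp.to_le h.cs_le)) h.vt.Q_le_cs

theorem T2.cs_eq (h : T2 A D W W' d d' y y') : Cs (ZZ A) = QQ A := t2b_cs h.pa h.pg

theorem T2.cs_eq' (h : T2 A D W W' d d' y y') : Cs (ZZ D) = QQ D :=
  t2b_cs h.pa.symm (inf_comm A D ▸ h.pg)

theorem t2b_odd (hP : IsPGroup 2 R) (hg : g ∈ R) (ho : Odd (orderOf g)) : g = 1 := by
  obtain ⟨k, hk⟩ := hP ⟨g, hg⟩
  exact orderOf_eq_one_iff.1 (Nat.Coprime.eq_one_of_dvd ((Nat.coprime_two_right.2 ho).pow_right k)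
    (orderOf_dvd_of_pow_eq_one (congrArg Subtype.val hk)))

theorem T2.cube (h : T2 A D W W' d d' y y') : d ^ 3 = 1 :=
  t2b_odd (Local.isPGroup_pCoreOf A) (h.cs_eq.le h.co.cube) (h.co.odd.of_dvd_nat (orderOf_pow_dvd 3))

theorem T2.faith (h : T2 A D W W' d d' y y') (hg : g ∈ A) (h1 : g ∈ Cs W) (h2 : g ∈ Cs W') :
    g ∈ QQ A := by
  refine Local.le_pCoreOf (N := A ⊓ (Cs W ⊓ Cs W')) inf_le_left (fun a ha => cj_eq_self_iff.1 ?_)
    (h.pg.to_le fun a ha => ⟨ha.1, (h.st a ha.1).2 (.inl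
      ⟨conj_eq_of_mem_centralizer ha.2.1 h.my, conj_eq_of_mem_centralizer ha.2.2 h.my'⟩)⟩) ⟨hg, h1, h2⟩
  rw [cj_inf, cj_inf, cj_eq_of_mem ha, cj_centralizer, cj_centralizer]
  rcases h.orb a ha with ⟨e1, e2⟩ | ⟨e1, e2⟩ <;> rw [e1, e2]
  rw [inf_comm (Cs W)]

theorem T2.cmp (h : T2 A D W W' d d' y y') (h' : Co A W'' d'') : W'' = W ∨ W'' = W' := by
  by_contra k
  rw [not_or] at k
  exact h'.nc (h.cs_eq ▸ h.faith h'.mem (h'.sep h.co k.1) (h'.sep h.co' k.2))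

theorem T2.pt_iff (h : T2 A D W W' d d' y y') : Pt A D z ↔ z = y ∨ z = y' := by
  refine ⟨fun ⟨x, hx, ht⟩ => ?_, fun k => k.elim (· ▸ h.pt) (· ▸ h.toTy.pt')⟩
  obtain ⟨W'', d'', k1, k2⟩ := h.pa.vt.exists_co hx.1 ht
  exact (h.cmp k1).imp (fun e => (h.toTy.tv_mem hx.1 ht (e.le k2)).1 hx.2)
    fun e => (h.toTy.symm.tv_mem hx.1 ht (e.le k2)).1 hx.2

theorem T2.act (h : T2 A D W W' d d' y y') (hg : g ∈ A) (hn : g ∈ Ns W)
    (h1 : W ≠ W' → g ∈ Cs W') (hf : ∀ w ∈ W, g * w = w * g → w = 1) :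
    g * d⁻¹ ∈ QQ A ∨ g * d ∈ QQ A := by
  refine (h.co.fpf_act hn hf).imp (fun k => h.faith (mul_mem hg (inv_mem h.co.mem)) k ?_)
    fun k => h.faith (mul_mem hg h.co.mem) k ?_
  all_goals rcases eq_or_ne W W' with e | e
  exacts [e ▸ k, mul_mem (h1 e) (inv_mem (h.co.sep h.co' e)), e ▸ k,
    mul_mem (h1 e) (h.co.sep h.co' e)]

theorem t2b_half (h : T2 A D W W' d d' y y') (hx : x ∈ A) (ht : Tv (ZZ A) x y) (hn : g ∈ Ns W)
    (hc : g * y = y * g) : g ∈ Cs W ∨ g * x ∈ Cs W := by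
  refine or_iff_not_imp_left.2 fun k => ?_
  obtain ⟨w, hw, k⟩ : ∃ w ∈ W, ¬ w * g = g * w := by simpa [mem_centralizer_iff] using k
  have h1 : w ≠ 1 := fun e => k (by simp [e])
  have h2 : w ≠ y := fun e => k (e ▸ hc.symm)
  have h3 := (h.co.fix_act hn h.my ht.ne hc hw).resolve_left fun e =>
    k (commutatorElement_eq_one_iff_mul_comm.1 e).symm
  have h4 := h.co.tv_act hx ht h.my hw h1 h2
  rw [commutatorElement_def, mul_inv_eq_iff_eq_mul, mul_inv_eq_iff_eq_mul] at h3 h4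
  refine h.co.fix_two h.my hw ht.ne h1 h2.symm ?_ ?_
  · rw [mul_assoc, h.pa.vt.tv_fix hx ht, ← mul_assoc, hc, mul_assoc]
  · calc g * x * w = g * y * w * x := by rw [mul_assoc, h4, ← mul_assoc, ← mul_assoc]
      _ = y * (g * w) * x := by rw [hc, mul_assoc y]
      _ = y * y * (w * (g * x)) := by rw [h3]; group
      _ = _ := by rw [h.co.sq h.my, one_mul]

theorem t2b_conj (hg : g ∈ Ns W) (hx : x ∈ Cs W) : g * x * g⁻¹ ∈ Cs W :=
  mem_normalizer_conj (Trans.normalizer_le_normalizer_centralizer W hg) hx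

theorem T2.stab (h : T2 A D W W' d d' y y') (hx : x ∈ A ⊓ D) (hx' : x' ∈ A ⊓ D)
    (ht : Tv (ZZ A) x y) (ht' : Tv (ZZ A) x' y') (hg : g ∈ A ⊓ D) (hc : g * y = y * g) :
    g ∈ QQ A ∨ g * x ∈ QQ A ∨ g * x' ∈ QQ A ∨ g * x * x' ∈ QQ A := by
  obtain ⟨h1, h2, h3⟩ := h.toTy.fix' hg hc
  have k1 := t2b_half h hx.1 ht h2 hc
  rcases eq_or_ne W W' with e | e
  · exact k1.imp (fun k => h.faith hg.1 k (e ▸ k)) fun k =>
      .inl (h.faith (mul_mem hg.1 hx.1) k (e ▸ k))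
  have k3 : x ∈ Cs W' := h.co'.tv_sep hx.1 ht fun k => e (h.co.eq_of_mem h.co' h.my k ht.ne)
  have k4 : x' ∈ Cs W := h.co.tv_sep hx'.1 ht' fun k => e (h.co.eq_of_mem h.co' k h.my' ht'.ne)
  rcases k1 with k1 | k1 <;> rcases t2b_half h.symm hx'.1 ht' h3 h1 with k2 | k2
  · exact .inl (h.faith hg.1 k1 k2)
  · exact .inr (.inr (.inl (h.faith (mul_mem hg.1 hx'.1) (mul_mem k1 k4) k2)))
  · exact .inr (.inl (h.faith (mul_mem hg.1 hx.1) k1 (mul_mem k2 k3)))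
  · refine .inr (.inr (.inr (h.faith (mul_mem (mul_mem hg.1 hx.1) hx'.1) (mul_mem k1 k4) ?_)))
    simpa [mul_assoc] using mul_mem k2 (t2b_conj (inv_mem (h.co'.tv_ns hx'.1 ht')) k3)

theorem t2b_pow (h : T2 A D W W' d d' y y') (hg : g ∈ A) (ho : Odd (orderOf g)) :
    ∃ k : ℕ, g * (d ^ k)⁻¹ ∈ Cs W := by
  have hn := h.toTy.odd_ns hg ho
  by_cases k : ∀ w ∈ W, g * w = w * g → w = 1
  · rcases h.co.fpf_act hn k with k | k
    · exact ⟨1, by rwa [pow_one]⟩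
    · exact ⟨2, by rwa [inv_eq_of_mul_eq_one_right ((pow_succ d 2).symm.trans h.cube)]⟩
  · push Not at k
    obtain ⟨w, h1, h2, h3⟩ := k
    exact ⟨0, by simpa using h.co.odd_fix hn ho h1 h3 h2⟩

theorem T2.odd_mem (h : T2 A D W W' d d' y y') (hg : g ∈ A) (ho : Odd (orderOf g)) :
    ∃ k l : ℕ, g * (d ^ k * d' ^ l)⁻¹ ∈ QQ A := by
  obtain ⟨k, hk⟩ := t2b_pow h hg ho
  rcases eq_or_ne W W' with e | e
  · refine ⟨k, 0, ?_⟩
    rw [pow_zero, mul_one]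
    exact h.faith (mul_mem hg (inv_mem (pow_mem h.co.mem k))) hk (e ▸ hk)
  obtain ⟨l, hl⟩ := t2b_pow h.symm hg ho
  refine ⟨k, l, h.faith (mul_mem hg (inv_mem (mul_mem (pow_mem h.co.mem k) (pow_mem h.co'.mem l))))
    ?_ ?_⟩
  · simpa [mul_assoc] using mul_mem hk (t2b_conj (pow_mem h.co.ns k)
      (inv_mem (pow_mem (h.co'.sep h.co e.symm) l)))
  · simpa [mul_assoc] using mul_mem hl (inv_mem (pow_mem (h.co.sep h.co' e) k))

theorem T2.o2_le (h : T2 A D W W' d d' y y') : O2 A ≤ zpowers d ⊔ zpowers d' ⊔ QQ A := by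
  refine O2_le_iff.2 fun g hg ho => ?_
  obtain ⟨k, l, e⟩ := h.odd_mem hg ho
  simpa only [inv_mul_cancel_right] using mul_mem (mem_sup_right e : _ ∈ zpowers d ⊔ zpowers d' ⊔ QQ A) (mem_sup_left
    (mul_mem (mem_sup_left (npow_mem_zpowers d k)) (mem_sup_right (npow_mem_zpowers d' l))))

theorem T2.mem_o2 (h : T2 A D W W' d d' y y') (hg : g ∈ O2 A) :
    ∃ k l : ℕ, g * (d ^ k * d' ^ l)⁻¹ ∈ QQ A := by
  have hn := Local.le_normalizer_pCoreOf (p := 2) A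
  have h1 : d' ∈ Ns (QQ A ⊔ zpowers d) := by
    refine mem_normalizer_of_cj_le ?_
    rw [cj_sup, cj_eq_self_iff.2 (hn h.co'.mem), cj_zpowers]
    refine sup_le le_sup_left (zpowers_le.2 ?_)
    simpa only [commutatorElement_def, inv_mul_cancel_right] using mul_mem (mem_sup_left
      (h.cs_eq.le (h.co'.comm h.co)) :
      _ ∈ QQ A ⊔ zpowers d) (mem_sup_right (mem_zpowers d))
  have h2 := h.o2_le hg
  rw [sup_comm, ← sup_assoc] at h2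
  obtain ⟨o, ho, r, hr, rfl⟩ := (Solv.mem_sup_of_le_normalizer (zpowers_le.2 h1)).1 h2
  obtain ⟨q, hq, s, hs, rfl⟩ := (Solv.mem_sup_of_le_normalizer (zpowers_le.2 (hn h.co.mem))).1 ho
  obtain ⟨k, rfl⟩ := mem_powers_iff_mem_zpowers.2 hs
  obtain ⟨l, rfl⟩ := mem_powers_iff_mem_zpowers.2 hr
  exact ⟨k, l, by simpa [mul_assoc] using hq⟩

theorem T2.inf_o2 (h : T2 A D W W' d d' y y') : A ⊓ D ⊓ O2 A ≤ QQ A := by
  intro g hg
  obtain ⟨k, l, e⟩ := h.mem_o2 hg.2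
  have : ((QQ A).subgroupOf A).Normal :=
    (normal_subgroupOf_iff_le_normalizer (Local.pCoreOf_le A)).2 (Local.le_normalizer_pCoreOf A)
  let π := QuotientGroup.mk' ((QQ A).subgroupOf A)
  have hπ : ∀ x : A, π x = 1 ↔ (x : G) ∈ QQ A := fun x => QuotientGroup.eq_one_iff x
  have h1 : π ⟨g, hg.1.1⟩ = π ⟨d, h.co.mem⟩ ^ k * π ⟨d', h.co'.mem⟩ ^ l := by
    rw [← mul_inv_eq_one, ← map_pow, ← map_pow, ← map_mul, ← map_inv, ← map_mul, hπ]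
    exact e
  have h2 : Commute (π ⟨d, h.co.mem⟩) (π ⟨d', h.co'.mem⟩) := by
    rw [← commutatorElement_eq_one_iff_commute, ← map_commutatorElement, hπ]
    exact h.cs_eq ▸ h.co.comm h.co'
  have h3 : π ⟨g, hg.1.1⟩ ^ 3 = 1 := by
    rw [h1, (h2.pow_pow k l).mul_pow, pow_right_comm, pow_right_comm _ l, ← map_pow π _ 3, ← map_pow π _ 3,
      show (⟨d, h.co.mem⟩ : A) ^ 3 = 1 from Subtype.ext h.cube,
      show (⟨d', h.co'.mem⟩ : A) ^ 3 = 1 from Subtype.ext h.symm.cube]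
    simp
  obtain ⟨m, hm⟩ := h.pg ⟨g, hg.1⟩
  have h4 : π ⟨g, hg.1.1⟩ ^ 2 ^ m = 1 := by
    rw [← map_pow, show (⟨g, hg.1.1⟩ : A) ^ 2 ^ m = 1 from Subtype.ext (congrArg Subtype.val hm :),
      map_one]
  exact (hπ ⟨g, hg.1.1⟩).1 (orderOf_eq_one_iff.1 (Nat.eq_one_of_dvd_coprimes
    ((by decide : Nat.Coprime 3 2).pow_right m) (orderOf_dvd_of_pow_eq_one h3)
    (orderOf_dvd_of_pow_eq_one h4)))

theorem T2.dec (h : T2 A D W W' d d' y y') (hg : g ∈ A) : ∃ o ∈ O2 A, ∃ s ∈ A ⊓ D, g = o * s := by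
  obtain ⟨o, ho, s, hs, e⟩ := (Solv.mem_sup_of_le_normalizer
    (inf_le_left.trans (Local.le_normalizer_resOf A))).1 ((Local.resOf_sup_sylowIn h.syl.2.1).ge hg)
  exact ⟨o, ho, s, hs, e.symm⟩

theorem T2.star (h : T2 A D W W' d d' y y') : ¬ QQ A ≤ QQ D := fun k =>
  h.pa.push1 (isSylowIn_self h.pg) inf_le_left le_rfl h.pa.not_le (inf_comm A D ▸ h.pa.symm.Q_le)
    h.pa.qd (Local.le_normalizer_pCoreOf D) (h.inf_o2.trans k)

end Cfsg.Lib.Qtz
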