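import Cfsg.Agent.Qtz.Defs
import Cfsg.Agent.Trans.TransferTools

set_option autoImplicit false
set_option linter.unusedSectionVars false

open scoped commutatorElement

namespace Cfsg.Lib.Qtz

open Cfsg Subgroup Cfsg.Lib.Trans Cfsg.Lib.Trans.TJ Cfsg.Lib.Gold Cfsg.Lib.Local
  Cfsg.Lib.Local.MSS Cfsg.Lib.Local.JC

universe u

variable {G : Type u} [Group G] [Finite G] {E : Subgroup G → Subgroup G → Prop} {n i j : ℕ}
  {v : ℕ → Subgroup G} {A A' B D H R S T U U' V W W' W'' X Y γ : Subgroup G}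
  {a c d d' d'' e e' g q r r' s u w x x' y y' z z' : G}

theorem transfer_wc (hG : commutator G = ⊤) (hS : IsSylowIn 2 S ⊤) (h0 : T ≤ S)
    (hw : ∀ g, cj g T ≤ S → g ∈ S) (hu : u ∈ T) (hc : u ∈ Cs T) (h2 : u * u = 1) : u ∈ ⁅S, S⁆ := by
  by_contra hn
  obtain ⟨M, ⟨m1, m2, m3⟩, hM⟩ := Set.Finite.exists_maximal (Set.toFinite
    {M : Subgroup G | ⁅S, S⁆ ≤ M ∧ M ≤ S ∧ u ∉ M}) ⟨_, le_rfl, Solv.commutator_le_left_of_le_normalizer le_normalizer, hn⟩
  have nM : ∀ a ∈ S, ∀ x ∈ M, a * x * a⁻¹ ∈ M := fun a ha x hx => by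
    simpa [commutatorElement_def] using mul_mem (m1 (commutator_mem_commutator ha (m2 hx))) hx
  have k : ∀ a ∈ S, orderOf a = 2 → a ∉ M → a * u ∈ M := fun a ha ho h => by
    by_contra c
    refine h (hM (y := M ⊔ zpowers a) ⟨le_sup_of_le_left m1, sup_le m2 (zpowers_le.2 ha),
      fun d => ?_⟩ le_sup_left (mem_sup_right (mem_zpowers a)))
    exact ((mem_sup_zpowers_two (mem_normalizer_of_cj_le (cj_le_iff.2 (nM a ha)))
      (by rw [← sq, ← ho, pow_orderOf_eq_one]; exact one_mem _)).1 d).elim m3 c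
  obtain ⟨a, -, h3, h4⟩ := thompson_transfer_involution (H := S) (T := M)
    (by simpa using hS.not_dvd) (fun x hx y hy => m1 (commutator_mem_commutator hx hy))
    (fun x hx => (hS.isPGroup ⟨x, hx⟩).imp fun k hk => by
      rw [show x ^ 2 ^ k = 1 from congrArg Subtype.val hk]; exact one_mem _)
    u (orderOf_eq_prime (by rw [sq, h2]) fun e => hn (e ▸ one_mem _))
    (fun x hx y hy ox oy h1 h2' => by
      have := mul_mem (k x hx ox h1) (inv_mem (k y hy oy h2'))
      rwa [mul_inv_rev, mul_assoc, mul_inv_cancel_left, inv_eq_of_mul_eq_one_right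
        (by rw [← sq, ← oy, pow_orderOf_eq_one])] at this)
    (mem_sup_left (hG ▸ mem_top u)) T (hS.isPGroup.to_le h0) (mem_centralizer_iff.1 hc)
  have := nM _ (inv_mem (hw a⁻¹ (cj_le_iff.2 fun r hr => by simpa using h4 r hr))) _ h3
  exact m3 (by simpa [mul_assoc] using this)

end Cfsg.Lib.Qtz
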