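import Cfsg.Agent.Qtz.B1
import Cfsg.Agent.Qtz.Tr

set_option autoImplicit false
set_option linter.unusedSectionVars false

open scoped commutatorElement

namespace Cfsg.Lib.Qtz

open Cfsg Subgroup Cfsg.Lib.Trans Cfsg.Lib.Trans.TJ Cfsg.Lib.Gold Cfsg.Lib.Local
  Cfsg.Lib.Local.MSS Cfsg.Lib.Local.JC

universe u

variable {G : Type u} [Group G] [Finite G] {E : Subgroup G → Subgroup G → Prop} {n i j : ℕ}
  {v : ℕ → Subgroup G} {A A' B D H R S T U U' V W W' W'' X Y γ : Subgroup G}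
  {a c d d' d'' e e' g q r r' s u w x x' y y' z z' : G}

theorem tr2_abs {N : Subgroup G} (hN : S ≤ Ns N) (hD : S ≤ Ns B) (h1 : N ⊔ B ≤ S)
    (h2 : N ⊔ B ≤ Cs B) (hs : s ∈ S) (h3 : ∀ g ∈ S, g ∈ N ⊔ B ∨ s⁻¹ * g ∈ N ⊔ B)
    (hu : u ∈ ⁅S, S⁆) : ∃ k ∈ N, ∃ w ∈ B, u = k * ⁅s, w⁆ := by
  have c1 : ∀ w ∈ B, ⁅s, w⁆ ∈ B := fun w hw => mul_mem (mem_normalizer_conj (hD hs) hw) (inv_mem hw)
  have c2 : ∀ t ∈ N ⊔ B, ∀ w ∈ B, Commute w t := fun t ht => mem_centralizer_iff.1 (h2 ht)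
  have c3 : ∀ w ∈ B, ∀ w' ∈ B, ⁅s, w⁆ * ⁅s, w'⁆ = ⁅s, w * w'⁆ := fun w hw w' hw' => by
    rw [commutatorElement_def s w, mul_assoc, ← (c2 _ (mem_sup_right (inv_mem hw)) _ (c1 w' hw')).eq]
    simp only [commutatorElement_def]; group
  let M : Subgroup G :=
    { carrier := {u | ∃ k ∈ N, ∃ w ∈ B, u = k * ⁅s, w⁆}
      one_mem' := ⟨1, one_mem _, 1, one_mem _, by simp⟩
      mul_mem' := by
        rintro _ _ ⟨k, hk, w, hw, rfl⟩ ⟨k', hk', w', hw', rfl⟩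
        exact ⟨_, mul_mem hk hk', _, mul_mem hw hw', by
          rw [(c2 _ (mem_sup_left hk') _ (c1 w hw)).mul_mul_mul_comm, c3 w hw w' hw']⟩
      inv_mem' := by
        rintro _ ⟨k, hk, w, hw, rfl⟩
        refine ⟨_, inv_mem hk, _, inv_mem hw, inv_eq_of_mul_eq_one_right ?_⟩
        rw [(c2 _ (mem_sup_left (inv_mem hk)) _ (c1 w hw)).mul_mul_mul_comm, c3 w hw _ (inv_mem hw)]
        simp }
  have mN : ∀ k ∈ N, k ∈ M := fun k hk => ⟨k, hk, 1, one_mem _, by simp⟩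
  have n1 : ∀ t ∈ N ⊔ B, ∀ x ∈ M, t * x * t⁻¹ ∈ M := by
    rintro t ht _ ⟨k, hk, w, hw, rfl⟩
    exact ⟨_, mem_normalizer_conj (hN (h1 ht)) hk, w, hw, by
      rw [← mul_assoc, mul_assoc _ _ t⁻¹, (c2 _ (inv_mem ht) _ (c1 w hw)).eq, ← mul_assoc]⟩
  have n2 : ∀ g ∈ S, ∀ x ∈ M, g * x * g⁻¹ ∈ M := fun g hg x hx => by
    rcases h3 g hg with e | e
    · exact n1 g e x hx
    obtain ⟨k, hk, w, hw, e1⟩ := n1 _ e x hx
    exact ⟨_, mem_normalizer_conj (hN hs) hk, _, mem_normalizer_conj (hD hs) hw, by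
      rw [show g * x * g⁻¹ = s * (s⁻¹ * g * x * (s⁻¹ * g)⁻¹) * s⁻¹ by group, e1]
      simp only [commutatorElement_def]; group⟩
  have p1 : ∀ a : G, ∀ g ∈ S, ∀ h : G, ⁅a, g⁆ ∈ M → ⁅a, h⁆ ∈ M → ⁅a, g * h⁆ ∈ M := fun a g hg h p q => by
    rw [show ⁅a, g * h⁆ = ⁅a, g⁆ * (g * ⁅a, h⁆ * g⁻¹) by simp only [commutatorElement_def]; group]
    exact mul_mem p (n2 g hg _ q)
  have p2 : ∀ a ∈ S, (∀ w ∈ B, ⁅a, w⁆ ∈ M) → ⁅a, s⁆ ∈ M → ∀ g ∈ S, ⁅a, g⁆ ∈ M :=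
    fun a ha p q g hg => by
      have k : ∀ t ∈ N ⊔ B, ⁅a, t⁆ ∈ M := fun t ht => by
        obtain ⟨k, hk, w, hw, rfl⟩ := (Solv.mem_sup_of_le_normalizer
          ((le_sup_right.trans h1).trans hN)).1 ht
        exact p1 a k (h1 (mem_sup_left hk)) w
          (mN _ (mul_mem (mem_normalizer_conj (hN ha) hk) (inv_mem hk))) (p w hw)
      rcases h3 g hg with e | e
      · exact k g e
      · rw [← mul_inv_cancel_left s g]; exact p1 a s hs _ q (k _ e)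
  have p3 : ∀ {a b : G}, ⁅a, b⁆ ∈ M → ⁅b, a⁆ ∈ M := fun h => by
    rw [← commutatorElement_inv]; exact inv_mem h
  have p4 : ∀ w ∈ B, ⁅s, w⁆ ∈ M := fun w hw => ⟨1, one_mem _, w, hw, (one_mul _).symm⟩
  refine (commutator_le.2 fun a ha => p2 a ha (fun w hw => p3 (p2 w (h1 (mem_sup_right hw))
    (fun w' hw' => ?_) (p3 (p4 w hw)) a ha)) (p3 (p2 s hs p4 ?_ a ha)) : _ ≤ M) hu
  · rw [(c2 _ (mem_sup_right hw') w hw).commutator_eq]; exact one_mem _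
  · rw [commutatorElement_self]; exact one_mem _

theorem Fn.tr2_t0 (h : Fn A D W W' U U' d d' e e' y y') :
    A ⊓ D ⊓ C1 y = W ⊔ W' ⊔ (U ⊔ U') ⊔ QQ A ⊓ QQ D := by
  rw [h.t0, sup_right_comm (W ⊔ W'), ← h.q_eq, sup_comm]

theorem Fn.tr2_ns (h : Fn A D W W' U U' d d' e e' y y') : A ⊓ D ≤ Ns (W ⊔ W' ⊔ (U ⊔ U')) :=
  fun g hg => by
    have h1 := cj_eq_self_iff.2 (h.ta.ns_sup hg.1)
    have h2 := cj_eq_self_iff.2 (h.td.ns_sup hg.2)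
    exact cj_eq_self_iff.1 (by rw [cj_sup, h1, h2])

theorem tr2_nsQ : A ⊓ D ≤ Ns (QQ A ⊓ QQ D) := fun g hg => by
  have h1 := cj_eq_self_iff.2 (Local.le_normalizer_pCoreOf (p := 2) A hg.1)
  have h2 := cj_eq_self_iff.2 (Local.le_normalizer_pCoreOf (p := 2) D hg.2)
  exact cj_eq_self_iff.1 (by rw [cj_inf, h1, h2])

theorem Fn.comm_le (h : Fn A D W W' U U' d d' e e' y y') (hs : s ∈ A ⊓ D)
    (hy : s * y * s⁻¹ = y') (hu : u ∈ ⁅A ⊓ D, A ⊓ D⁆) :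
    ∃ k ∈ W ⊔ W' ⊔ (U ⊔ U'), ∃ w ∈ QQ A ⊓ QQ D, u = k * ⁅s, w⁆ := by
  refine tr2_abs h.tr2_ns tr2_nsQ (h.tr2_t0.ge.trans inf_le_left) (h.tr2_t0.ge.trans h.cent) hs
    (fun g hg => ?_) hu
  rw [← h.tr2_t0]
  refine ((h.ta.st g hg.1).1 hg.2).imp (fun e => ⟨hg, mem_centralizer_singleton_iff.2
    (mul_inv_eq_iff_eq_mul.1 e.1)⟩) fun e => mem_inf.2 ⟨mul_mem (inv_mem hs) hg,
      mem_centralizer_singleton_iff.2 (mul_inv_eq_iff_eq_mul.1 ?_)⟩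
  calc _ = s⁻¹ * (g * y * g⁻¹) * s := by group
    _ = y := by rw [e.1, ← hy]; group

theorem Fn.d0_le (h : Fn A D W W' U U' d d' e e' y y') (hG : commutator G = ⊤) :
    QQ A ⊓ QQ D ≤ W ⊔ W' ⊔ (U ⊔ U') := by
  obtain ⟨s, hs, -, hy⟩ := h.ta.sw
  have sq : ∀ u ∈ QQ A ⊓ QQ D, u * u = 1 := fun u hu => (pow_two u).symm.trans (h.ea.2 u hu.1)
  have hle : QQ A ⊓ QQ D ≤ A ⊓ D ⊓ C1 y := le_sup_right.trans h.tr2_t0.ge
  have k : ∀ u ∈ QQ A ⊓ QQ D, ∃ k ∈ W ⊔ W' ⊔ (U ⊔ U'), ∃ w ∈ QQ A ⊓ QQ D, u = k * ⁅s, w⁆ :=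
    fun u hu => h.comm_le hs hy (transfer_wc hG h.ta.syl.1 inf_le_left (fun _ => h.wc) (hle hu)
      (le_centralizer_iff.1 h.cent hu) (sq u hu))
  have s2 : s * s ∈ A ⊓ D ⊓ C1 y := mem_inf.2 ⟨mul_mem hs hs, mem_centralizer_singleton_iff.2
    (mul_inv_eq_iff_eq_mul.1 (by
      rw [show s * s * y * (s * s)⁻¹ = s * (s * y * s⁻¹) * s⁻¹ by group, hy]
      rcases (h.ta.st s hs.1).1 hs.2 with e | e
      exacts [e.2.trans (hy.symm.trans e.1), e.2]))⟩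
  intro u hu
  obtain ⟨k0, hk0, w, hw, rfl⟩ := k u hu
  obtain ⟨k1, hk1, w1, hw1, rfl⟩ := k w hw
  refine mul_mem hk0 ?_
  have e1 : s * ⁅s, w1⁆ * s⁻¹ = ⁅s, w1⁆ := by
    have c1 : w1 * (s * s) = s * s * w1 := mem_centralizer_iff.1 (h.cent s2) w1 hw1
    have c2 : w1 * (s * w1 * s⁻¹) = s * w1 * s⁻¹ * w1 :=
      mem_centralizer_iff.1 (h.cent (hle (mem_normalizer_conj (tr2_nsQ hs) hw1))) w1 hw1
    rw [commutatorElement_def, inv_eq_of_mul_eq_one_right (sq w1 hw1)]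
    calc _ = s * s * w1 * (s * s)⁻¹ * (s * w1 * s⁻¹) := by group
      _ = w1 * (s * w1 * s⁻¹) := by rw [← c1]; group
      _ = _ := c2
  rw [commutatorElement_def s (_ * _), ← conj_mul, e1, mul_inv_rev, mul_assoc, mul_inv_cancel_left]
  exact mul_mem (mem_normalizer_conj (h.tr2_ns hs) hk1) (inv_mem hk1)

theorem Fn.q_eq' (h : Fn A D W W' U U' d d' e e' y y') (hG : commutator G = ⊤) : QQ A = W ⊔ W' := by
  refine h.q_eq.trans (sup_eq_left.2 fun u hu => ?_)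
  obtain ⟨w, hw, k, hk, rfl⟩ := (Solv.mem_sup_of_le_normalizer (((le_sup_left.trans h.t0.ge).trans
    (inf_le_left.trans inf_le_left)).trans h.ta.ns_sup)).1 (h.d0_le hG hu)
  exact mul_mem hw (h.inf_le ⟨hk, (mul_mem_cancel_left (h.q_eq.ge (mem_sup_left hw))).1 hu.1⟩)

end Cfsg.Lib.Qtz
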