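import Cfsg.Agent.Qtz.Walk
import Cfsg.Agent.Qtz.Rank
import Cfsg.Agent.Qtz.Mu

set_option autoImplicit false
set_option linter.unusedSectionVars false

open scoped commutatorElement

namespace Cfsg.Lib.Qtz

open Cfsg Subgroup Cfsg.Lib.Trans Cfsg.Lib.Trans.TJ Cfsg.Lib.Gold Cfsg.Lib.Local
  Cfsg.Lib.Local.MSS Cfsg.Lib.Local.JC

universe u

variable {G : Type u} [Group G] [Finite G] {E : Subgroup G → Subgroup G → Prop} {n i j : ℕ}
  {v : ℕ → Subgroup G} {A A' B D H R S T U U' V W W' W'' X Y γ : Subgroup G}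
  {a c d d' d'' e e' g q r r' s u w x x' y y' z z' : G}

theorem tya_sub (hX : Cs (ZZ A) ≤ X) (h1 : a ∈ X)
    (h : a * d⁻¹ ∈ Cs (ZZ A) ∨ a * d ∈ Cs (ZZ A)) : d ∈ X := by
  rcases h with h | h
  · exact inv_mem_iff.1 ((mul_mem_cancel_left h1).1 (hX h))
  · exact (mul_mem_cancel_left h1).1 (hX h)

/-- Two points that are permuted by a subgroup. -/
theorem tya_perm (hW : ∀ g ∈ B, (cj g W = W ∧ cj g W' = W') ∨ (cj g W = W' ∧ cj g W' = W))
    (hF : ∀ g ∈ B, cj g W = W → g * y * g⁻¹ = y) (hs : s ∈ B) (hs' : cj s W = W') (hg : g ∈ B) :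
    (g * y * g⁻¹ = y ∧ g * (s * y * s⁻¹) * g⁻¹ = s * y * s⁻¹) ∨
      (g * y * g⁻¹ = s * y * s⁻¹ ∧ g * (s * y * s⁻¹) * g⁻¹ = y) := by
  rcases hW g hg with ⟨k1, k2⟩ | ⟨k1, k2⟩
  · have := hF (s⁻¹ * g * s) (mul_mem (mul_mem (inv_mem hs) hg) hs)
      (by rw [cj_mul, cj_mul, hs', k2, ← hs', cj_inv_cj])
    refine .inl ⟨hF g hg k1, ?_⟩
    conv_rhs => rw [← this]
    group
  · have t1 := hF (s⁻¹ * g) (mul_mem (inv_mem hs) hg) (by rw [cj_mul, k1, ← hs', cj_inv_cj])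
    have t2 := hF (g * s) (mul_mem hg hs) (by rw [cj_mul, hs', k2])
    refine .inr ⟨?_, ?_⟩
    · conv_rhs => rw [← t1]
      group
    · conv_rhs => rw [← t2]
      group

theorem ty_of (h : PA A D) (hc : Co A W d) (hx : x ∈ A ⊓ D) (ht : Tv (ZZ A) x y) (hy : y ∈ W)
    (hd : d ∉ D) : ∃ W' d' y', Ty A D W W' d d' y y' := by
  obtain ⟨k, hk, ho⟩ := hc.orbit hx.1 ht hy
  have hF : ∀ g ∈ A ⊓ D, cj g W = W → g * y * g⁻¹ = y := fun g hg e => by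
    by_contra ne
    have m : g * x * g⁻¹ ∈ A ⊓ D := mul_mem (mul_mem hg hx) (inv_mem hg)
    exact hd (tya_sub h.cs_le (mul_mem m hx) (hc.tv_mul hx.1 m.1 ht (ht.cj' (ns_ZZ A hg.1)) hy
      (mem_normalizer_conj (cj_eq_self_iff.1 e) hy) (Ne.symm ne))).2
  obtain ⟨s, hs, hs'⟩ : ∃ s ∈ A ⊓ D, cj s W = cj k W := by
    by_contra ne
    have l : A ⊓ D ≤ Ns W := fun g hg => ((ho g hg.1).resolve_right fun e => ne ⟨g, hg, e.1⟩).1
      |> cj_eq_self_iff.1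
    exact ne ⟨1, one_mem _, by rw [cj_one, cj_eq_self_iff.2 (h.gen l hc.mem hd hc.ns hk)]⟩
  have pm := fun g (hg : g ∈ A ⊓ D) => tya_perm (B := A ⊓ D) (fun g hg => ho g hg.1) hF hs hs' hg
  have m' : s * y * s⁻¹ ∈ cj k W := hs' ▸ conj_mem_cj.2 hy
  refine ⟨cj k W, s * d * s⁻¹, s * y * s⁻¹, h, hc, hs' ▸ hc.cj' hs.1, hy, m', ⟨x, hx, ht⟩, ho,
    ⟨s, hs, hs', rfl⟩, fun g hg => ⟨fun e => pm g ⟨hg, e⟩, fun e => ?_⟩⟩
  set y' := s * y * s⁻¹ with hy'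
  let X : Subgroup G :=
    { carrier := {g | (g * y * g⁻¹ = y ∧ g * y' * g⁻¹ = y') ∨ (g * y * g⁻¹ = y' ∧ g * y' * g⁻¹ = y)}
      one_mem' := .inl ⟨by group, by group⟩
      mul_mem' := fun {a b} ha hb => by
        have e : ∀ t, a * b * t * (a * b)⁻¹ = a * (b * t * b⁻¹) * a⁻¹ := fun t => by group
        simp only [Set.mem_ofPred_eq, e]
        rcases ha with ⟨a1, a2⟩ | ⟨a1, a2⟩ <;> rcases hb with ⟨b1, b2⟩ | ⟨b1, b2⟩ <;>
          simp only [b1, b2, a1, a2, and_self, true_or, or_true]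
      inv_mem' := fun {a} ha => by
        have e : ∀ t t', a * t * a⁻¹ = t' → a⁻¹ * t' * a⁻¹⁻¹ = t := fun t t' k => by
          rw [← k]; group
        rcases ha with ⟨a1, a2⟩ | ⟨a1, a2⟩
        exacts [.inl ⟨e _ _ a1, e _ _ a2⟩, .inr ⟨e _ _ a2, e _ _ a1⟩] }
  by_contra ne
  rcases h.gen (X := X) pm hg ne e hc.mem with ⟨k1, -⟩ | ⟨k1, -⟩
  · exact (hc.distinct hy ht.ne).1 k1
  · have e1 : W = cj k W := hc.eq_of_mem (hc.cj' hk) (k1 ▸ mem_normalizer_conj hc.ns hy) m'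
      fun k2 => ht.ne (conj_eq_one_iff.1 k2)
    exact (hc.distinct hy ht.ne).1 (k1.trans (hF s hs (hs'.trans e1.symm)))

theorem not_mem_one (h : PA A D) (hc : Co A W d) (hx : x ∈ ZZ D) (ht : Tv (ZZ A) x y)
    (hy : y ∈ W) : d ∉ D := by
  intro hd
  have l : ZZ D ≤ A := h.symm.zz_le.trans inf_le_right
  exact (hc.distinct hy ht.ne).1 (hc.tv_two ((Local.isPGroup_pCoreOf D).to_le h.vt'.zz_le_Q) l
    (mem_normalizer_conj (ns_ZZ D hd) hx) hx (ht.cj' (ns_ZZ A hc.mem)) ht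
    (mem_normalizer_conj hc.ns hy) hy)

theorem not_mem_two (h : PA A D) (hc : Co A W d) (hx : x ∈ Cs (ZZ D)) (h2 : x * x = 1)
    (ht : Tv (ZZ A) x y) (hy : y ∈ W) : d ∉ D := by
  intro hd
  have xB : x ∈ A ⊓ D := inf_comm D A ▸ h.symm.cs_le hx
  have x' : d * x * d⁻¹ ∈ Cs (ZZ D) :=
    mem_normalizer_conj (normalizer_le_normalizer_centralizer _ (ns_ZZ D hd)) hx
  obtain ⟨S, hS, l⟩ := exists_isSylowIn_ge (p := 2) (Q := zpowers x)
    (IsPGroup.of_card (n := (orderOf x).log2) (by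
      rw [Nat.card_zpowers]
      rcases (Nat.dvd_prime Nat.prime_two).1 (orderOf_dvd_of_pow_eq_one (pow_two x ▸ h2)) with
        e | e <;> rw [e] <;> rfl)) (zpowers_le.2 xB)
  have xS : x ∈ S := l (mem_zpowers x)
  obtain ⟨-, s1, s2, -⟩ := h.syl_of hS
  have dZ : d ∈ Cs (OZ S) := tya_sub (centralizer_le (OZ_le_ZZ s1))
    (centralizer_le (OZ_le_ZZ s2) (mul_mem x' hx))
    (hc.tv_mul xB.1 (mul_mem (mul_mem hc.mem xB.1) (inv_mem hc.mem)) ht (ht.cj' (ns_ZZ A hc.mem)) hy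
      (mem_normalizer_conj hc.ns hy) (hc.distinct hy ht.ne).1.symm)
  obtain ⟨k, hk, ho⟩ := hc.orbit xB.1 ht hy
  have hF : ∀ g ∈ S, cj g W = W → g * y * g⁻¹ = y := fun g hg e =>
    hc.tv_two hS.isPGroup s1.le (mul_mem (mul_mem hg xS) (inv_mem hg)) xS
      (ht.cj' (ns_ZZ A (s1.le hg))) ht (mem_normalizer_conj (cj_eq_self_iff.1 e) hy) hy
  refine ht.ne (hc.fpf hy ?_)
  by_cases hs : ∃ s ∈ S, cj s W ≠ W
  · obtain ⟨s, hs, ne⟩ := hs
    have hs' : cj s W = cj k W := ((ho s (s1.le hs)).resolve_left fun e => ne e.1).1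
    have m' : s * y * s⁻¹ ∈ cj s W := conj_mem_cj.2 hy
    have c' := hc.cj' (s1.le hs)
    have cm : y * (s * y * s⁻¹) = s * y * s⁻¹ * y := h.vt.zz_comm (c'.le m') y ht.mem
    have p : y * (s * y * s⁻¹) ∈ OZ S := by
      refine h.vt.fix_mem s1 (mul_mem ht.mem (c'.le m')) (mem_centralizer_iff.2 fun g hg => ?_)
      rw [← mul_inv_eq_iff_eq_mul, show g * (y * (s * y * s⁻¹)) * g⁻¹ =
        g * y * g⁻¹ * (g * (s * y * s⁻¹) * g⁻¹) by group]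
      rcases tya_perm (fun g hg => ho g (s1.le hg)) hF hs hs' hg with ⟨k1, k2⟩ | ⟨k1, k2⟩ <;>
        rw [k1, k2]
      exact cm.symm
    have e1 := dZ _ p
    have e2 := hc.sep c' ne.symm _ m'
    rw [mul_assoc, e2, ← mul_assoc, ← mul_assoc d] at e1
    exact (mul_right_cancel e1).symm
  · push Not at hs
    exact (dZ y (h.vt.fix_mem s1 ht.mem (mem_centralizer_iff.2 fun g hg =>
      mul_inv_eq_iff_eq_mul.1 (hF g hg (hs g hg))))).symm

theorem Cr.cx (h : Cr E n v) : ∃ W W' U d d' y y' e c x, Cx E n v W W' U d d' y y' e c x := by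
  obtain ⟨W, U, d, e, c, x, y, m⟩ := exists_mu (h.vt (Nat.zero_le n)) (h.vt le_rfl)
    (h.le0.trans inf_le_left) (h.len.trans inf_le_left) h.nc
  have xZ := m.co'.le m.xU
  have hd : d ∉ v 1 := by
    have := h.pos
    rcases Nat.lt_or_ge n 2 with hn | hn
    · obtain rfl : n = 1 := by omega
      exact not_mem_one (h.pa h.pos) m.co xZ m.tx m.yW
    · exact not_mem_two (h.pa h.pos) m.co
        (walk_cs_symm (h.comm (i := 1) (j := n) this le_rfl (by omega)) xZ) (m.co'.sq m.xU) m.tx m.yW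
  obtain ⟨W', d', y', t⟩ := ty_of (h.pa h.pos) m.co (h.le0 xZ) m.tx m.yW hd
  exact ⟨W, W', U, d, d', y, y', e, c, x, h, t, m⟩

end Cfsg.Lib.Qtz
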