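import Cfsg.Agent.Qtz.Walk

/-! Consequences of the local structure `Ty`. -/

set_option autoImplicit false
set_option linter.unusedSectionVars false

open scoped commutatorElement

namespace Cfsg.Lib.Qtz

open Cfsg Subgroup Cfsg.Lib.Trans Cfsg.Lib.Trans.TJ Cfsg.Lib.Gold Cfsg.Lib.Local
  Cfsg.Lib.Local.MSS Cfsg.Lib.Local.JC

universe u

variable {G : Type u} [Group G] [Finite G] {E : Subgroup G → Subgroup G → Prop} {n i j : ℕ}
  {v : ℕ → Subgroup G} {A A' B D H R S T U U' V W W' W'' X Y γ : Subgroup G}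
  {a c d d' d'' e e' g q r r' s u w x x' y y' z z' : G}

theorem Ty.pt' (h : Ty A D W W' d d' y y') : Pt A D y' := by
  obtain ⟨s, hs, -, rfl⟩ := h.sw
  obtain ⟨x, hx, t⟩ := h.pt
  exact ⟨_, mul_mem (mul_mem hs hx) (inv_mem hs), t.cj' (ns_ZZ A hs.1)⟩

theorem Ty.symm (h : Ty A D W W' d d' y y') : Ty A D W' W d' d y' y := by
  refine ⟨h.pa, h.co', h.co, h.my', h.my, h.pt', fun g hg => (h.orb g hg).imp .symm .symm, ?_,
    fun g hg => (h.st g hg).trans (or_congr and_comm and_comm)⟩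
  obtain ⟨s, hs, rfl, rfl⟩ := h.sw
  exact ⟨s⁻¹, inv_mem hs, cj_inv_cj _ _, by group⟩

theorem Ty.cj (h : Ty A D W W' d d' y y') (g : G) :
    Ty (cj g A) (cj g D) (cj g W) (cj g W') (g * d * g⁻¹) (g * d' * g⁻¹) (g * y * g⁻¹)
      (g * y' * g⁻¹) := by
  have e : ∀ (k : G) (X Y : Subgroup G), Trans.cj k (Trans.cj g X) = Trans.cj g Y ↔
      Trans.cj (g⁻¹ * k * g) X = Y := fun k X Y => by
    rw [← cj_inj (g := g) (T := Trans.cj _ X), cj_cj, cj_cj]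
    simp [mul_assoc]
  have e' : ∀ k a b : G, k * (g * a * g⁻¹) * k⁻¹ = g * b * g⁻¹ ↔
      g⁻¹ * k * g * a * (g⁻¹ * k * g)⁻¹ = b := fun k a b =>
    ⟨fun e => by rw [show b = g⁻¹ * (g * b * g⁻¹) * g by group, ← e]; group,
      fun e => by rw [← e]; group⟩
  refine ⟨h.pa.cj g, h.co.cj g, h.co'.cj g, conj_mem_cj.2 h.my, conj_mem_cj.2 h.my', h.pt.cj g,
    fun k hk => ?_, ?_, fun k hk => ?_⟩
  · simp only [e]
    exact h.orb _ (mem_cj.1 hk)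
  · obtain ⟨s, hs, h1, h2⟩ := h.sw
    refine ⟨g * s * g⁻¹, ⟨conj_mem_cj.2 hs.1, conj_mem_cj.2 hs.2⟩, (e ..).2 ?_, (e' ..).2 ?_⟩
    · simpa [mul_assoc] using h1
    · simpa [mul_assoc] using h2
  · simp only [e']
    exact mem_cj.trans (h.st _ (mem_cj.1 hk))

theorem Ty.cj' (h : Ty A D W W' d d' y y') (hg : g ∈ A) :
    Ty A (Trans.cj g D) (Trans.cj g W) (Trans.cj g W') (g * d * g⁻¹) (g * d' * g⁻¹) (g * y * g⁻¹)
      (g * y' * g⁻¹) := by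
  have := h.cj g
  rwa [cj_eq_of_mem hg] at this

theorem Ty.ne (h : Ty A D W W' d d' y y') : y ≠ 1 := by
  obtain ⟨x, -, t⟩ := h.pt
  exact t.ne

theorem TyB_nd (h : Ty A D W W' d d' y y') : d ∉ D := fun hd => by
  rcases (h.st d h.co.mem).1 hd with k | ⟨k1, k2⟩
  · exact (h.co.distinct h.my h.ne).1 k.1
  · refine (h.co.distinct h.my h.ne).2.2 ?_
    conv_rhs => rw [← k2]
    rw [k1]
    group

theorem TyB_two (h : Ty A D W W' d d' y y') (hx : x ∈ A ⊓ D) (hx' : x' ∈ A ⊓ D) (ht : Tv (ZZ A) x z)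
    (ht' : Tv (ZZ A) x' z') (hz : z ∈ W) (hz' : z' ∈ W) (hne : z ≠ z') : False := by
  have m : (x' * x)⁻¹ ∈ D := inv_mem (mul_mem hx'.2 hx.2)
  rcases h.co.tv_mul hx.1 hx'.1 ht ht' hz hz' hne with k | k
  · exact TyB_nd h (by simpa [mul_assoc] using mul_mem m (h.pa.cs_le k).2)
  · exact TyB_nd h (by simpa [mul_assoc] using mul_mem m (h.pa.cs_le k).2)

theorem TyB_eq (h : Ty A D W W' d d' y y') (e : W = W') : y = y' := by
  obtain ⟨x, hx, t⟩ := h.pt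
  obtain ⟨x', hx', t'⟩ := h.pt'
  exact by_contra (TyB_two h hx hx' t t' h.my (e ▸ h.my'))

theorem Ty.fix (h : Ty A D W W' d d' y y') (hg : g ∈ A ⊓ D) (hn : g ∈ Ns W) :
    g * y = y * g ∧ g * y' = y' * g := by
  rcases (h.st g hg.1).1 hg.2 with k | k
  · exact ⟨mul_inv_eq_iff_eq_mul.1 k.1, mul_inv_eq_iff_eq_mul.1 k.2⟩
  · obtain rfl := TyB_eq h (h.co.eq_of_mem h.co' (k.1 ▸ mem_normalizer_conj hn h.my) h.my' h.symm.ne)
    exact ⟨mul_inv_eq_iff_eq_mul.1 k.1, mul_inv_eq_iff_eq_mul.1 k.1⟩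

theorem Ty.fix' (h : Ty A D W W' d d' y y') (hg : g ∈ A ⊓ D) (hc : g * y = y * g) :
    g * y' = y' * g ∧ g ∈ Ns W ∧ g ∈ Ns W' := by
  have k : g * y' = y' * g := by
    rcases (h.st g hg.1).1 hg.2 with k | k
    · exact mul_inv_eq_iff_eq_mul.1 k.2
    · rw [hc, mul_inv_cancel_right] at k
      exact k.1 ▸ hc
  exact ⟨k, h.co.ns_of hg.1 h.my h.ne (by rw [hc, mul_inv_cancel_right]; exact h.my),
    h.co'.ns_of hg.1 h.my' h.symm.ne (by rw [k, mul_inv_cancel_right]; exact h.my')⟩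

theorem Ty.eq_iff (h : Ty A D W W' d d' y y') : W = W' ↔ y = y' := by
  exact ⟨TyB_eq h, fun e => h.co.eq_of_mem h.co' h.my (e ▸ h.my') h.ne⟩

theorem Ty.nd (h : Ty A D W W' d d' y y') : d ∉ D := by
  exact TyB_nd h

theorem Ty.d_mem (h : Ty A D W W' d d' y y') : d ∈ O2 A := by
  exact mem_O2 h.co.mem h.co.odd

theorem Ty.ns_iff (h : Ty A D W W' d d' y y') (hg : g ∈ A) : g ∈ Ns W ↔ g ∈ Ns W' := by
  simp only [← cj_eq_self_iff]
  rcases h.orb g hg with k | k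
  · simp only [k]
  · rw [k.1, k.2, eq_comm]

theorem Ty.ns_sup (h : Ty A D W W' d d' y y') : A ≤ Ns (W ⊔ W') := by
  intro g hg
  rw [← cj_eq_self_iff, cj_sup]
  rcases h.orb g hg with k | k
  · rw [k.1, k.2]
  · rw [k.1, k.2, sup_comm]

theorem Ty.odd_ns (h : Ty A D W W' d d' y y') (hg : g ∈ A) (ho : Odd (orderOf g)) : g ∈ Ns W := by
  rcases h.orb g hg with k | k
  · exact cj_eq_self_iff.1 k.1
  · have h2 : g * g ∈ Ns W := cj_eq_self_iff.1 (by rw [cj_mul, k.1, k.2])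
    obtain ⟨m, hm⟩ := ho
    have e : g = (g * g) ^ (m + 1) := by
      rw [← sq, ← pow_mul, mul_add, mul_one, show 2 * m + 2 = 2 * m + 1 + 1 from rfl, ← hm, pow_succ,
        pow_orderOf_eq_one, one_mul]
    exact e ▸ pow_mem h2 _

theorem Ty.o2_ns (h : Ty A D W W' d d' y y') : O2 A ≤ Ns W := by
  exact O2_le_iff.2 fun g hg ho => h.odd_ns hg ho

theorem Ty.o2_cent (h : Ty A D W W' d d' y y') : O2 (A ⊓ D) ≤ Cs W := by
  exact O2_le_iff.2 fun g hg ho =>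
    h.co.odd_fix (h.odd_ns hg.1 ho) ho h.my h.ne (h.fix hg (h.odd_ns hg.1 ho)).1

theorem Ty.o2_norm (h : Ty A D W W' d d' y y') : A ≤ Ns (O2 (A ⊓ D)) := by
  have k : ∀ g, (∀ o ∈ A ⊓ D, Odd (orderOf o) → g * o * g⁻¹ ∈ A ⊓ D) → g ∈ Ns (O2 (A ⊓ D)) :=
    fun g hg => mem_normalizer_of_cj_le (cj_le_iff_le_cj_inv.2 (O2_le_iff.2 fun o ho oo =>
      mem_cj_inv.2 (mem_O2 (hg o ho oo) (by rwa [← MulAut.conj_apply, MulEquiv.orderOf_eq]))))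
  refine h.pa.gen (fun g hg => k g fun o ho _ => mul_mem (mul_mem hg ho) (inv_mem hg)) h.co.mem h.nd
    (k d fun o ho oo => ?_)
  have := mul_mem (inv_mem (h.pa.cs_le (h.co.comm_of_cent ho.1 (h.o2_cent (mem_O2 ho oo))))) ho
  simpa [commutatorElement_def, mul_assoc] using this

theorem Ty.zz_le (h : Ty A D W W' d d' y y') : ZZ A ≤ W ⊔ W' ⊔ ZZ D := by
  obtain ⟨S, hS⟩ := exists_isSylowIn (p := 2) (A ⊓ D)
  obtain ⟨-, h1, h2, -⟩ := h.pa.syl_of hS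
  have hY : W ⊔ W' ⊔ ZZ A ⊓ ZZ D ≤ ZZ A := sup_le (sup_le h.co.le h.co'.le) inf_le_left
  have hA : A ≤ Ns (W ⊔ W' ⊔ ZZ A ⊓ ZZ D) := by
    refine h.pa.gen (fun g hg => cj_eq_self_iff.1 ?_) h.co.mem h.nd
      (mem_normalizer_of_cj_le (cj_le_iff.2 fun u hu => ?_))
    · rw [cj_sup, cj_inf, cj_eq_self_iff.2 (h.ns_sup hg.1), cj_eq_self_iff.2 (ns_ZZ A hg.1),
        cj_eq_self_iff.2 (ns_ZZ D hg.2)]
    · have := mul_mem (mem_sup_left (mem_sup_left (h.co.comm_mem (hY hu)))) hu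
      simpa [commutatorElement_def, mul_assoc] using this
  refine (ZZ_eq h1).le.trans ((MSS.ncl_le ?_ hA).trans (sup_le_sup_left inf_le_right _))
  exact (le_inf (OZ_le_ZZ h1) (OZ_le_ZZ h2)).trans le_sup_right

theorem Ty.tv_mem (h : Ty A D W W' d d' y y') (hx : x ∈ A) (ht : Tv (ZZ A) x z) (hz : z ∈ W) :
    x ∈ D ↔ z = y := by
  obtain ⟨x₀, h0, t⟩ := h.pt
  refine ⟨fun hD => by_contra fun hne => TyB_two h ⟨hx, hD⟩ h0 ht t hz h.my hne, ?_⟩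
  rintro rfl
  simpa using mul_mem (h.pa.cs_le (h.pa.vt.tv_eq h0.1 hx t ht)).2 h0.2

theorem Ty.tv_cj (h : Ty A D W W' d d' y y') (hx : x ∈ A) (ht : Tv (ZZ A) x y) (hg : g ∈ A)
    (hn : g ∈ Ns W) : x ∈ Trans.cj g D ↔ g * y = y * g := by
  have t := ht.cj' (inv_mem (ns_ZZ A hg))
  rw [inv_inv] at t
  rw [mem_cj, h.tv_mem (mul_mem (mul_mem (inv_mem hg) hx) hg) t (mem_normalizer_conj' hn h.my),
    mul_assoc, inv_mul_eq_iff_eq_mul, eq_comm]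

theorem Ty.comm_fix (h : Ty A D W W' d d' y y') (hg : g ∈ A ⊓ D) (hs : s ∈ A ⊓ D) :
    ⁅g, s⁆ * y = y * ⁅g, s⁆ := by
  have k : ∀ u, s * (g * u * g⁻¹) * s⁻¹ = y → g * (s * u * s⁻¹) * g⁻¹ = y → ⁅g, s⁆ * y = y * ⁅g, s⁆ :=
    fun u e1 e2 => by
      refine mul_inv_eq_iff_eq_mul.1 ?_
      conv_lhs => rw [← e1]
      rw [← e2, commutatorElement_def]
      group
  rcases (h.st g hg.1).1 hg.2 with ⟨g1, g2⟩ | ⟨g1, g2⟩ <;>
    rcases (h.st s hs.1).1 hs.2 with ⟨s1, s2⟩ | ⟨s1, s2⟩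
  · exact k y (by rw [g1, s1]) (by rw [s1, g1])
  · exact k y' (by rw [g2, s2]) (by rw [s2, g1])
  · exact k y' (by rw [g2, s1]) (by rw [s2, g2])
  · exact k y (by rw [g1, s2]) (by rw [s1, g2])

end Cfsg.Lib.Qtz
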