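import Cfsg.Agent.Qtz.Pair
import Cfsg.Agent.Qtz.Cmp2

set_option autoImplicit false
set_option linter.unusedSectionVars false

open scoped commutatorElement

namespace Cfsg.Lib.Qtz

open Cfsg Subgroup Cfsg.Lib.Trans Cfsg.Lib.Trans.TJ Cfsg.Lib.Gold Cfsg.Lib.Local
  Cfsg.Lib.Local.MSS Cfsg.Lib.Local.JC

universe u

variable {G : Type u} [Group G] [Finite G] {E : Subgroup G → Subgroup G → Prop} {n i j : ℕ}
  {v : ℕ → Subgroup G} {A A' B D H R S T U U' V W W' W'' X Y γ : Subgroup G}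
  {a c d d' d'' e e' g q r r' s u w x x' y y' z z' : G}

theorem walk_cs_symm (h : X ≤ Cs Y) : Y ≤ Cs X := Subgroup.le_centralizer_iff.1 h

theorem Cr.edge (h : Cr E n v) (hi : i < n) : E (v i) (v (i + 1)) := by
  exact h.wk i hi

theorem Cr.edge' (h : Cr E n v) (hi : 0 < i) (hn : i ≤ n) : E (v i) (v (i - 1)) := by
  obtain ⟨k, rfl⟩ : ∃ k, i = k + 1 := ⟨i - 1, by omega⟩
  exact h.gr.symm _ _ (h.edge (by omega))

theorem Cr.pa (h : Cr E n v) (hi : i < n) : PA (v i) (v (i + 1)) := by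
  exact h.gr.pa _ _ (h.edge hi)

theorem Cr.vt (h : Cr E n v) (hi : i ≤ n) : Vt (v i) := by
  rcases Nat.eq_zero_or_pos i with rfl | k
  · exact (h.pa h.pos).vt
  · exact (h.gr.pa _ _ (h.edge' k hi)).vt

theorem Cr.comm (h : Cr E n v) (hi : i ≤ j) (hj : j ≤ n) (hl : j - i < n) :
    ZZ (v i) ≤ Cs (ZZ (v j)) := by
  rcases hi.eq_or_lt with rfl | k
  · exact (h.vt hj).zz_comm
  · have := h.sh (j - i) (fun k => v (i + k)) (by omega) hl fun k hk => h.edge (by omega)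
    simpa [Nat.add_sub_cancel' hi] using this

theorem Cr.rev (h : Cr E n v) : Cr E n (fun i => v (n - i)) := by
  refine ⟨h.gr, h.pos, fun i hi => ?_, h.sh, fun k => h.nc ?_⟩
  · exact h.edge' (i := n - i) (by omega) (by omega)
  · simpa using walk_cs_symm k

theorem Cr.le0 (h : Cr E n v) : ZZ (v n) ≤ v 0 ⊓ v 1 := by
  have := h.pos
  exact ((walk_cs_symm (h.comm (i := 1) (j := n) this le_rfl (by omega))).trans
    (h.pa this).symm.cs_le).trans (inf_comm _ _).le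

theorem Cr.len (h : Cr E n v) : ZZ (v 0) ≤ v n ⊓ v (n - 1) := by
  simpa using h.rev.le0

theorem Cr.adj (h : Cr E n v) (hn : 2 ≤ n) (hE : E A D) : ZZ A ≤ Cs (ZZ D) := by
  exact h.sh 1 (cons A fun _ => D) one_pos hn fun i hi => by
    obtain rfl : i = 0 := by omega
    exact hE

theorem Gr.cj' (h : Gr E) (hE : E A D) (hg : g ∈ A) : E A (Trans.cj g D) := by
  have := h.cj _ _ g hE
  rwa [cj_eq_of_mem hg] at this

theorem Gr.all (h : Gr E) {P : Subgroup G → Subgroup G → Prop}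
    (hP : ∀ A D g, P A D → P (Trans.cj g A) (Trans.cj g D)) (hE : E A D) (h1 : P A D) (h2 : P D A)
    {A' D' : Subgroup G} (hE' : E A' D') : P A' D' := by
  obtain ⟨g, ⟨rfl, rfl⟩ | ⟨rfl, rfl⟩⟩ := h.tr _ _ _ _ hE hE'
  · exact hP _ _ g h1
  · exact hP _ _ g h2

theorem cons_pos (γ : Subgroup G) (v : ℕ → Subgroup G) (hi : 0 < i) : cons γ v i = v (i - 1) := by
  obtain ⟨k, rfl⟩ : ∃ k, i = k + 1 := ⟨i - 1, by omega⟩
  rfl

theorem Cr.cons (h : Cr E n v) (hγ : E γ (v 0)) (hc : ¬ ZZ γ ≤ Cs (ZZ (v (n - 1)))) :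
    Cr E n (cons γ v) := by
  refine ⟨h.gr, h.pos, fun i hi => ?_, h.sh, ?_⟩
  · rcases i with _ | i
    · exact hγ
    · exact h.edge (by omega)
  · rw [cons_pos γ v h.pos]
    exact hc

theorem Mu.symm (h : Mu A A' W U d e c x y) : Mu A' A U W e d x c y := by
  refine ⟨h.co', h.co, h.xU, h.yU, h.cW, h.yW, h.tc, h.tx, ?_⟩
  rw [← commutatorElement_inv, h.cm]
  exact inv_eq_of_mul_eq_one_right (h.co.sq h.yW)

theorem Mu.nx (h : Mu A A' W U d e c x y) (ha : a ∈ A') (hy : a * y = y * a) :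
    ⁅a, x⁆ = 1 ∨ ⁅a, x⁆ = y := by
  have k : a * y * a⁻¹ = y := by rw [hy, mul_inv_cancel_right]
  exact h.co'.fix_act (h.co'.ns_of ha h.yU h.tx.ne (k.symm ▸ h.yU)) h.yU h.tx.ne hy h.xU

theorem Pt.cj (h : Pt A D z) (g : G) : Pt (cj g A) (cj g D) (g * z * g⁻¹) := by
  obtain ⟨x, hx, ht⟩ := h
  refine ⟨g * x * g⁻¹, ?_, ?_⟩
  · rw [← cj_inf]
    exact conj_mem_cj.2 hx
  · rw [ZZ_cj]
    exact ht.cj g

theorem Pt.mem (h : Pt A D z) : z ∈ ZZ A := by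
  obtain ⟨x, -, ht⟩ := h
  exact ht.mem

theorem Cx.x_mem (h : Cx E n v W W' U d d' y y' e c x) : x ∈ ZZ (v n) ∧ x ∈ v 0 ⊓ v 1 := by
  exact ⟨h.mu.co'.le h.mu.xU, h.cr.le0 (h.mu.co'.le h.mu.xU)⟩

theorem Cx.pt (h : Cx E n v W W' U d d' y y' e c x) : Pt (v n) (v (n - 1)) y := by
  exact ⟨c, h.cr.len (h.mu.co.le h.mu.cW), h.mu.tc⟩

end Cfsg.Lib.Qtz
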